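/- Class C7: the critical pair and case A of the characteristic two core. -/
import Cfsg.Agent.H60.WrKit

set_option autoImplicit false

namespace H90.C7
open Cfsg Cfsg.Geo Matrix H19 Module H60.Wr
open scoped MatrixGroups

universe u

theorem jobCrit : JobCrit.{u} := by
  intro F _ _ k t M H ⟨i0, w0, φ0, r0⟩ hM
  obtain ⟨g0, hg0, hgT⟩ := SetLike.not_le_iff_exists.1 hM
  have ne : Set.Nonempty {p : EE k t F × Fin t × (Fin k → F) × (Fin k → F) |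
      Out M p.1 ∧ Rt M p.2.1 p.2.2.1 p.2.2.2} :=
    ⟨(cj g0 (em i0 (ro w0 φ0)), i0, w0, φ0),
      ⟨g0, hg0, i0, w0, φ0, r0, rfl, fun h => hgT (H.R hg0 r0 h)⟩, r0⟩
  obtain ⟨⟨N', i, w, φ⟩, ⟨hO, hr⟩, hmax⟩ := Set.exists_max_image _
    (fun p : EE k t F × Fin t × (Fin k → F) × (Fin k → F) =>
      finrank F ↥(LS p.2.1 (F ∙ p.2.2.1) ⊓ rg p.1)) (Set.toFinite _) ne
  refine ⟨N', i, w, φ, hO, hr, fun j v χ hc => ?_⟩
  obtain ⟨g, hg, i1, w1, φ1, r1, e, hT⟩ := hO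
  dsimp only at e hT
  obtain ⟨c, hcM, ec⟩ := hc.2.2.2
  have hh : g⁻¹ * c * g ∈ M := M.mul_mem (M.mul_mem (M.inv_mem hg) hcM) hg
  have hT' : g⁻¹ * c * g ∉ TT k t F := fun h => by
    have h1 : g⁻¹ ∈ TT k t F := H.R (M.inv_mem hg) hc ⟨_, h, by
      have := cj_coe g⁻¹ c
      rw [inv_inv, ec, map_add, map_one] at this
      exact this.symm⟩
    exact hT (e ▸ (H.root_mem r1).cj_one_add (by simpa using (TT k t F).inv_mem h1))
  have := hmax (cj (g⁻¹ * c * g) (em i1 (ro w1 φ1)), i1, w1, φ1)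
    ⟨⟨_, hh, i1, w1, φ1, r1, rfl, fun h => hT' (H.R hh r1 h)⟩, r1⟩
  refine le_trans ?_ this
  rw [← finrank_map_unit g⁻¹]
  refine Submodule.finrank_mono ?_
  rintro _ ⟨y, ⟨hy1, hy2⟩, rfl⟩
  rw [e, rg_cj] at hy1
  obtain ⟨y0, h0, rfl⟩ := hy1
  have e1 : toLin' ((g⁻¹ : GG k t F) : EE k t F) (toLin' (g : EE k t F) y0) = y0 := by simp
  rw [e1]
  refine ⟨rg_em_ro i1 r1.2.1 w1 ▸ h0, ?_⟩
  dsimp only
  rw [rg_cj]
  refine ⟨y0, h0, ?_⟩
  have h3 : (c : EE k t F) *ᵥ ((g : EE k t F) *ᵥ y0) = (g : EE k t F) *ᵥ y0 := by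
    have := mem_kn.1 hy2
    rw [toLin'_apply] at this
    rw [ec, add_mulVec, one_mulVec, this, add_zero]
  rw [toLin'_apply, Units.val_mul, Units.val_mul, ← mulVec_mulVec, ← mulVec_mulVec, h3]
  simp

section
variable {F : Type u} [Field F] {k t : ℕ} {i : Fin t} {w φ : Fin k → F}

theorem exists_mid (hk : 3 ≤ k) (φ w : Fin k → F) :
    ∃ u ψ : Fin k → F, φ ⬝ᵥ u = 0 ∧ ψ ⬝ᵥ u = 1 ∧ ψ ⬝ᵥ w = 0 := by
  have : ¬ LinearMap.ker (dotProductBilin F F φ) ≤ F ∙ w := fun h => by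
    have h1 := Submodule.finrank_mono h
    have h2 := LinearMap.finrank_range_add_finrank_ker (dotProductBilin F F φ)
    have h3 := Submodule.finrank_le (LinearMap.range (dotProductBilin F F φ))
    have h4 : finrank F (F ∙ w) ≤ 1 := (finrank_span_le_card _).trans (by simp)
    simp only [finrank_self, finrank_fintype_fun_eq_card, Fintype.card_fin] at h2 h3
    omega
  obtain ⟨u, h1, h2⟩ := SetLike.not_le_iff_exists.1 this
  obtain ⟨ψ, h3, h4⟩ := exists_dot_of_notMem h2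
  exact ⟨u, ψ, by simpa using h1, h3, h4 w (Submodule.mem_span_singleton_self w)⟩

theorem mem_kn_ro (hw : w ≠ 0) {v : Fin k → F} : v ∈ kn (ro w φ) ↔ φ ⬝ᵥ v = 0 := by
  rw [mem_kn, ro_mulVec]; simp [hw]

/-- An element normalising the factor and trivial on `ker N / im N` lies in the factor. -/
theorem inA_of_ker (hk : 3 ≤ k) (hw : w ≠ 0) {δ : GG k t F} (hn : Nm δ i i)
    (h : ∀ y ∈ kn (em i (ro w φ) : EE k t F), (δ : EE k t F) *ᵥ y - y ∈ LS i (F ∙ w)) :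
    InA i (δ : EE k t F) := by
  obtain ⟨s, d, hd, rfl⟩ := hn.exists_eq
  obtain ⟨u, ψ, h1, h2, h3⟩ := exists_mid hk φ w
  have u0 : u ≠ 0 := by rintro rfl; simp at h2
  have ψ0 : ψ ≠ 0 := by rintro rfl; simp at h2
  have key : em i (ro u ψ) * ((emG i s * d : GG k t F) : EE k t F) * em i (ro u ψ) =
      em i (ro u ψ) * 1 := ext_mulVec fun v => by
    have e1 : em i (ro u ψ) *ᵥ v ∈ kn (em i (ro w φ) : EE k t F) := by
      rw [mem_kn, mulVec_mulVec, ← map_mul, ro_mul_ro, h1, zero_smul, map_zero, zero_mulVec]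
    have e2 : LS i (F ∙ w) ≤ kn (em i (ro u ψ) : EE k t F) := by
      rw [kn_em, LS_le_LS, Submodule.span_singleton_le_iff_mem, mem_kn_ro u0]; exact h3
    have e3 := mem_kn.1 (e2 (h _ e1))
    rw [mulVec_sub, sub_eq_zero] at e3
    rw [← mulVec_mulVec, ← mulVec_mulVec, e3, mulVec_mulVec, ← map_mul, ro_mul_ro, h2, one_smul,
      mul_one]
  rw [ct_spec, Units.val_mul, coe_emG, ct_em_mul hd] at key
  have e := em_cancel (ro_ne_zero u0 ψ0) (hd.smul _) InC.one key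
  have r0 : ψ ⬝ᵥ (s : Mk k F) *ᵥ u ≠ 0 := fun h0 => by
    rw [h0, zero_smul] at e
    haveI : Nonempty (Fin t → Fin k) := ⟨fun _ => ⟨0, by omega⟩⟩
    exact zero_ne_one e
  rw [Units.val_mul, coe_emG]
  exact (InA.em i _).mul ((Sc.of_smul r0 (e ▸ Sc.one)).inA i)

end

theorem jobE3 : JobE3.{u} := by
  intro hT F _ _ k t M N' i w φ H ⟨c, c0, c1, hA⟩ hO hr hE
  have hr' := hA i w φ hr
  obtain ⟨τ₁, m1, s1⟩ := hT F k t M N' i w φ w H hO hr hr.1 (hE.le hr hr.2.2.1)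
    (Or.inl (Submodule.mem_span_singleton_self w))
  obtain ⟨τ₂, m2, s2⟩ := hT F k t M N' i w (c • φ) w H hO hr' hr.1 (hE.le hr' hr'.2.2.1)
    (Or.inl (Submodule.mem_span_singleton_self w))
  have eN : (em i (ro w (c • φ)) : EE k t F) = c • em i (ro w φ) := by rw [ro_smul_right, map_smul]
  have hY : rg (em i (ro w φ) : EE k t F) = LS i (F ∙ w) := rg_em_ro i hr.2.1 w
  have hY' : rg N' = (LS i (F ∙ w)).map (toLin' (τ₁ : EE k t F)) := by
    rw [← s1.conj, rg_cj, hY]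
  -- the final contradiction
  have fin : ∀ w', w' ≠ 0 → ¬ rg N' ≤ LS i (F ∙ w') := fun w' h0 h => by
    have : τ₁ ∈ TT k t F := H.h1 τ₁ m1 i w φ i w' hr h0 (maps_of_le hr.1 h0 fun v hv =>
      h (hY' ▸ Submodule.mem_map_of_mem hv))
    exact hO.not_mem (s1.conj ▸ (H.root_mem hr).cj_one_add this)
  have hδ : cj (τ₂ * τ₁) (em i (ro w φ)) = em i (ro w (c • φ)) := by
    rw [cj_mul, s1.conj, ← s2.conj, ← cj_mul, s2.sq, cj_one]
  have hδT : τ₂ * τ₁ ∈ TT k t F := H.R (M.mul_mem m2 m1) hr (hδ ▸ H.root_mem hr')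
  have hn : Nm (τ₂ * τ₁) i i := nm_of_cj hδT hr.not_sc ⟨_, hδ⟩
  have hδY : ∀ y ∈ LS i (F ∙ w), ((τ₂ * τ₁ : GG k t F) : EE k t F) *ᵥ y ∈ LS i (F ∙ w) :=
    fun y hy => by
      rw [← rg_em_ro i hr'.2.1, ← hδ, rg_cj, hY]
      exact Submodule.mem_map_of_mem hy
  have hker : ∀ y ∈ kn (em i (ro w φ) : EE k t F),
      ((τ₂ * τ₁ : GG k t F) : EE k t F) *ᵥ y - y ∈ LS i (F ∙ w) := fun y hy => by
    obtain ⟨a, ha, b, ⟨hb, hb'⟩, rfl⟩ := Submodule.mem_sup.1 (s1.ker hy)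
    have e : ((τ₂ * τ₁ : GG k t F) : EE k t F) *ᵥ b = b := by
      rw [Units.val_mul, ← mulVec_mulVec, s1.fix b (mem_kn.1 hb) (mem_kn.1 hb'),
        s2.fix b (by rw [eN, smul_mulVec, mem_kn.1 hb, smul_zero]) (mem_kn.1 hb')]
    rw [hY] at ha
    rw [mulVec_add, e, add_sub_add_right_eq_sub]
    exact sub_mem (hδY a ha) ha
  obtain ⟨b, hb⟩ := inA_of_ker H.k3 hr.1 hn hker
  haveI := nontrivial_U i hr.1
  obtain ⟨e, he⟩ := exists_ne (0 : UU k F i)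
  have b1 : ∀ v, φ ⬝ᵥ v = 0 → b *ᵥ v - v ∈ F ∙ w := fun v hv => by
    have := hker ((ten k F i).t e v) (by
      rw [kn_em]; exact (ten k F i).t_mem_LS _ ((mem_kn_ro hr.1).2 hv))
    rwa [hb, em_t, ← map_sub, (ten k F i).t_mem_LS_iff he] at this
  obtain ⟨μ, hμ⟩ : ∃ μ : F, b *ᵥ w = μ • w := by
    have := hδY _ ((ten k F i).t_mem_LS e (Submodule.mem_span_singleton_self w))
    rw [hb, em_t, (ten k F i).t_mem_LS_iff he] at this
    obtain ⟨μ, h⟩ := Submodule.mem_span_singleton.1 this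
    exact ⟨μ, h.symm⟩
  have dY : ∀ y ∈ LS i (F ∙ w), em i b *ᵥ y = μ • y := fun y hy => by
    obtain ⟨e, rfl⟩ := (ten k F i).mem_LS_span.1 hy
    rw [em_t, hμ, map_smul]
  have dY' : ∀ y ∈ rg N', μ • em i b *ᵥ y = y := fun y hy => by
    rw [hY'] at hy
    obtain ⟨y, hy, rfl⟩ := hy
    have e1 : τ₂ * τ₁ * τ₁ * (τ₂ * τ₁) = τ₁ := by
      rw [mul_assoc τ₂, s1.sq, mul_one, ← mul_assoc, s2.sq, one_mul]
    have e2 := congrArg (fun g : GG k t F => (g : EE k t F) *ᵥ y) e1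
    simp only [Units.val_mul τ₂ τ₁ ▸ hb, Units.val_mul] at e2
    rw [← mulVec_mulVec, dY y hy, mulVec_smul, ← mulVec_mulVec] at e2
    exact e2
  have hc : (em i b * em i (ro w φ) : EE k t F) = c • em i (ro w φ) * em i b := by
    rw [← hb, ← eN]; exact (cj_eq_iff _ _ _).1 hδ
  by_cases hk : rg N' ≤ kn (em i (ro w φ) : EE k t F)
  · exact fin w hr.1 (hY ▸ (le_inf le_rfl hk).trans s1.inf)
  obtain ⟨y, hy, hy'⟩ := SetLike.not_le_iff_exists.1 hk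
  rw [mem_kn] at hy'
  have hμ2 : μ * μ = c := by
    have h1 := congrArg (fun X : EE k t F => μ • X *ᵥ y) hc
    simp only [← mulVec_mulVec, smul_mulVec] at h1
    rw [dY _ (hY ▸ mem_rg.2 ⟨y, rfl⟩), smul_comm μ c, ← mulVec_smul _ μ (em i b *ᵥ y), dY' y hy,
      smul_smul] at h1
    exact smul_left_injective F hy' h1
  have hW : rg N' ≤ LS i (kn (μ • b - 1)) := fun y hy => by
    rw [← kn_em, mem_kn, map_sub, map_smul, map_one, sub_mulVec, smul_mulVec, dY' y hy,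
      one_mulVec, sub_self]
  have hW0 : ∀ v ∈ kn (μ • b - 1), φ ⬝ᵥ v = 0 → v = 0 := fun v hv h0 => by
    rw [mem_kn, sub_mulVec, smul_mulVec, one_mulVec, sub_eq_zero] at hv
    obtain ⟨r, hr1⟩ := Submodule.mem_span_singleton.1 (b1 v h0)
    have μ1 : 1 - μ ≠ 0 := fun h => c1 (by rw [← hμ2, ← sub_eq_zero.1 h, one_mul])
    have e1 : v = ((1 - μ)⁻¹ * (μ * r)) • w := by
      rw [mul_smul, eq_inv_smul_iff₀ μ1, mul_smul, hr1, smul_sub, hv, sub_smul, one_smul]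
    generalize (1 - μ)⁻¹ * (μ * r) = a at e1
    subst e1
    rw [mulVec_smul, hμ, smul_smul, smul_smul] at hv
    have e2 := smul_left_injective F hr.1 hv
    have e3 : (c - 1) * a = 0 := by rw [← hμ2]; linear_combination e2
    rw [(mul_eq_zero.1 e3).resolve_left (sub_ne_zero.2 c1), zero_smul]
  obtain ⟨w', hw', w0⟩ : ∃ w' ∈ kn (μ • b - 1), w' ≠ 0 := by
    by_contra! h
    have := hW hy
    rw [(Submodule.eq_bot_iff _).2 h] at this
    obtain rfl : y = 0 := by simpa using this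
    exact hy' (mulVec_zero _)
  refine fin w' w0 (hW.trans (LS_le_LS.2 fun v hv => ?_))
  have φ0 : φ ⬝ᵥ w' ≠ 0 := fun h => w0 (hW0 w' hw' h)
  have := hW0 (v - (φ ⬝ᵥ v / φ ⬝ᵥ w') • w') (sub_mem hv (Submodule.smul_mem _ _ hw')) (by
    rw [dotProduct_sub, dotProduct_smul, smul_eq_mul, div_mul_cancel₀ _ φ0, sub_self])
  exact Submodule.mem_span_singleton.2 ⟨_, (sub_eq_zero.1 this).symm⟩

end H90.C7
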