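import Cfsg.Agent.H67.ConjH
import Cfsg.Agent.H55.SylCert
import Cfsg.Agent.H55.TriLang
import Cfsg.Agent.H68.TwE6
import Cfsg.Agent.H68.ReeT
import Cfsg.Agent.H68.Tits
import Cfsg.Prelude.Def_EvenType

/-! Row S5304 (abelian Sylow subgroups of groups of Lie type): definitions and slots.
Notes: `blueprints/AB.md`. -/

set_option autoImplicit false
set_option linter.unusedSectionVars false

namespace H90.AB

open Cfsg.Lie H63 H64 H65 H46 Subgroup

universe u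

/-- `y` is a `p`-element. -/
def PE {G : Type*} [Group G] (p : ℕ) (y : G) : Prop := ∃ j : ℕ, y ^ p ^ j = 1

/-- If a Sylow `p`-subgroup `S` is abelian then `C(Ω₁ S) ≤ C(S)`. -/
def Ph (p : ℕ) (G : Type*) [Group G] : Prop :=
  ∀ S : Sylow p G, (∀ a ∈ S, ∀ b ∈ S, a * b = b * a) →
    ∀ g : G, (∀ x ∈ S, x ^ p = 1 → g * x = x * g) → ∀ x ∈ S, g * x = x * g

/-- An odd prime. -/
structure OP (p : ℕ) : Prop where
  pr : p.Prime
  ne : p ≠ 2

/-! ### Reductions -/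

/-- Reductions for finite groups. -/
structure Red : Prop where
  iso : ∀ (p : ℕ) (X Y : Type) [Group X] [Group Y] [Finite X], p.Prime → (X ≃* Y) → Ph p X → Ph p Y
  /-- `X` contains every `p`-element of `Y` up to a central factor -/
  sub : ∀ (p : ℕ) (X Y : Type) [Group X] [Group Y] [Finite Y] (f : X →* Y) (Z : Subgroup Y),
    p.Prime → Function.Injective f → Z ≤ center Y →
    (∀ y, PE p y → ∃ x, ∃ z ∈ Z, y = f x * z) → (∀ x, f x ∈ Z → x ^ p = 1 → x = 1) →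
    Ph p Y → Ph p X
  /-- a subgroup of index prime to `p` -/
  idx : ∀ (p : ℕ) (Y : Type) [Group Y] [Finite Y] (M : Subgroup Y), p.Prime → ¬ p ∣ M.index →
    Ph p Y → Ph p M
  /-- a central kernel of order prime to `p` -/
  quo : ∀ (p : ℕ) (X Y : Type) [Group X] [Group Y] [Finite X] (π : X →* Y), p.Prime →
    Function.Surjective π → π.ker ≤ center X → (∀ z, π z = 1 → z ^ p = 1 → z = 1) →
    Ph p X → Ph p Y
  /-- a non-abelian `p`-subgroup -/
  nab : ∀ (p : ℕ) (X : Type) [Group X] [Finite X] (P : Subgroup X), p.Prime → IsPGroup p P →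
    (∃ a ∈ P, ∃ b ∈ P, a * b ≠ b * a) → Ph p X
  /-- `n` induces a non-trivial `p`-automorphism of the `p`-subgroup `A` -/
  nb : ∀ (p : ℕ) (X : Type) [Group X] [Finite X] (A : Subgroup X) (n : X) (j : ℕ), p.Prime →
    IsPGroup p A → (∀ a ∈ A, n * a * n⁻¹ ∈ A) → (∀ a ∈ A, n ^ p ^ j * a = a * n ^ p ^ j) →
    (∃ a ∈ A, n * a ≠ a * n) → Ph p X
  exp : ∀ (p : ℕ) (X : Type) [Group X] [Finite X], p.Prime → (∀ x : X, PE p x → x ^ p = 1) → Ph p X
  cn : ∀ (p : ℕ) (X : Type) [Group X] [Finite X], p.Prime →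
    (∀ x : X, x ≠ 1 → Group.IsNilpotent (centralizer {x})) → Ph p X

def JobRed : Prop := Red

/-- The row from `Ph`. -/
def JobFin : Prop := ∀ (G : Type u) [Group G] [Finite G] (p : ℕ) [Fact p.Prime] (X : Type) [Group X],
  (G ≃* X) → Ph p X → ∀ (S : Sylow p G), IsMulCommutative (S : Subgroup G) → ∀ Ω : Subgroup G,
    (∀ x : G, x ∈ Ω ↔ x ∈ (S : Subgroup G) ∧ x ^ p = 1) →
    normalizer (Ω : Set G) = normalizer ((S : Subgroup G) : Set G)

/-! ### Tori -/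

section Tori

variable {Γ : Type} [Group Γ]

/-- `g` commutes with the elements of `A`. -/
def Cm (g : Γ) (A : Set Γ) : Prop := ∀ a ∈ A, g * a = a * g

/-- `m` normalises `H`. -/
def Nm (H : Subgroup Γ) (m : Γ) : Prop := m ∈ normalizer (H : Set Γ)

/-- `H` behaves like a maximal torus of the locally finite group `Γ`. -/
structure TD (p : ℕ) (H : Subgroup Γ) : Prop where
  comm : ∀ a ∈ H, ∀ b ∈ H, a * b = b * a
  fin : H.relIndex (normalizer (H : Set Γ)) ≠ 0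
  lf : ∀ s : Set Γ, s.Finite → Finite (closure s)
  fus : ∀ (g : Γ) (A : Set Γ), A ⊆ H → (∀ a ∈ A, g * a * g⁻¹ ∈ H) →
    ∃ m, Nm H m ∧ ∀ a ∈ A, m * a * m⁻¹ = g * a * g⁻¹
  key : ∀ (A : Set Γ), A ⊆ H → ∀ z ∈ H, Odd (orderOf z) → (∀ m, Nm H m → Cm m A → m * z = z * m) →
    ∀ g, Cm g A → g * z = z * g
  reg : ∃ E : Set Γ, E.Finite ∧ (∀ e ∈ E, e ∈ H ∧ e ^ p = 1) ∧ ∀ g, Cm g E → Nm H g

/-- `C_N(A) / H` has order prime to `p`. -/
def WP (p : ℕ) (H : Subgroup Γ) (A : Set Γ) : Prop := ∀ m, Nm H m → Cm m A → m ^ p ∈ H → m ∈ H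

/-- A toral set of fixed elements of order `p` whose centraliser in the Weyl group is a `p'`-group. -/
def Tor (p : ℕ) (H : Subgroup Γ) (σ : Γ →* Γ) : Prop := ∃ (x : Γ) (A : Set Γ), A.Finite ∧
  (∀ a ∈ A, a ∈ H ∧ a ^ p = 1 ∧ σ (x * a * x⁻¹) = x * a * x⁻¹) ∧ WP p H A

end Tori

/-- Averaging over `C_N(A) / H`. -/
def JobAV : Prop := ∀ (Γ : Type) [Group Γ] (p : ℕ) (H : Subgroup Γ) (A : Set Γ) (θ : Γ →* Γ), p.Prime →
  TD p H → A ⊆ H → WP p H A → Function.Injective θ → H.map θ = H → (∀ a ∈ A, θ a = a) →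
  ∀ x ∈ H, PE p x → θ x = x → ∃ z ∈ H, PE p z ∧ θ z = z ∧ (∀ m, Nm H m → Cm m A → m * z = z * m) ∧
    ∀ j : ℕ, (∀ m, Nm H m → Cm m A → m * (x * z⁻¹) ^ j = (x * z⁻¹) ^ j * m) → (x * z⁻¹) ^ j = 1

/-- Finite `p`-subgroups of `C(A)` are toral. -/
def JobTo : Prop := ∀ (Γ : Type) [Group Γ] (p : ℕ) (H : Subgroup Γ) (A : Set Γ), p.Prime →
  TD p H → A ⊆ H → WP p H A → ∀ S : Subgroup Γ, Finite S → IsPGroup p S → (∀ s ∈ S, Cm s A) →
  ∃ y, Cm y A ∧ ∀ s ∈ S, y⁻¹ * s * y ∈ H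

/-- The abstract theorem. -/
def Core : Prop := ∀ (Γ : Type) [Group Γ] (p : ℕ) (H : Subgroup Γ) (σ : Γ →* Γ), OP p → TD p H →
  Function.Injective σ → H.map σ = H → Tor p H σ →
  ∀ (G : Type) [Group G] [Finite G] (f : G →* Γ), Function.Injective f → (∀ g, σ (f g) = f g) →
    (∀ y, σ y = y → PE p y → y ∈ f.range) → Ph p G

def JobCore : Prop := JobAV → JobTo → Core

/-! ### Chevalley groups over the algebraic closure -/

instance tG2 : Tab chevG2 := tabG2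
instance cG2 : Comm chevG2 := commG2
instance tD4 : Tab chevD4 := tabD4
instance cD4 : Comm chevD4 := commD4
instance tF4 : Tab chevF4 := tabF4
instance cF4 : Comm chevF4 := commF4
instance tE6 : Tab chevE6 := tabE6
instance cE6 : Comm chevE6 := commE6
instance tE7 : Tab chevE7 := tabE7
instance cE7 : Comm chevE7 := commE7
instance tE8 : Tab chevE8 := tabE8
instance cE8 : Comm chevE8 := commE8

section Chev

variable (D : ChevalleyDatum) [RS D] [Tab D] [Comm D] (K : Type) [Field K]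

/-- the algebraic closure -/
abbrev kk : Type := AlgebraicClosure K
/-- the algebraic group -/
abbrev Ga : Type := ↥(D.group (kk K))
/-- its maximal torus -/
noncomputable abbrev Ha : Subgroup (Ga D K) := (H67.torG D (kk K)).range
/-- the finite group in the algebraic group -/
noncomputable abbrev em : ↥(D.group K) →* Ga D K := mapG D (algebraMap K (kk K))

variable {D K}

/-- `σ` is a Steinberg endomorphism; one of its powers is the Frobenius map over `K`. -/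
structure Stb [Fintype K] (σ : Ga D K →* Ga D K) : Prop where
  pow : ∃ (e : ℕ) (φ : kk K →+* kk K), 0 < e ∧ (∀ t, φ t = t ^ Fintype.card K) ∧
    ∀ g, σ^[e] g = mapG D φ g
  tor : ∀ c, σ (H67.torG D (kk K) c) ∈ Ha D K

/-- Lang's theorem for `σ`; its action on the torus. -/
structure LA (σ : Ga D K →* Ga D K) (π : ℕ → ℕ) (q : ℕ) : Prop where
  lang : ∀ g, ∃ x, x⁻¹ * σ x = g
  tor : ∀ c, ∃ c', σ (H67.torG D (kk K) c) = H67.torG D (kk K) c' ∧
    ∀ i j : Fin D.rank, π i = j → c' j = c i ^ q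

/-- `M` is the group of fixed points of `σ` in the finite group. -/
def Fx (σ : Ga D K →* Ga D K) (M : Subgroup (GL D.Idx K)) : Prop :=
  M ≤ D.group K ∧ ∀ g : ↥(D.group K), (g : GL D.Idx K) ∈ M ↔ σ (em D K g) = em D K g

end Chev

/-- The maximal torus. -/
def JobTD : Prop := ∀ (D : ChevalleyDatum) [RS D] [Tab D] [Comm D] (K : Type) [Field K] [Fintype K]
  (p : ℕ), OP p → (p : K) ≠ 0 → TD p (Ha D K)

/-- From the algebraic group to the finite group. -/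
def EX : Prop := ∀ (D : ChevalleyDatum) [RS D] [Tab D] [Comm D] (K : Type) [Field K] [Fintype K]
  (p n : ℕ), OP p → (p : K) ≠ 0 → (∀ c ∈ cker D (kk K)ˣ, c ^ n = 1) → ¬ p ∣ n →
  ∀ (σ : Ga D K →* Ga D K) (M : Subgroup (GL D.Idx K)), Stb σ → Fx σ M → Tor p (Ha D K) σ → Ph p M

def JobEX : Prop := Core → JobTD → EX

/-- The untwisted Frobenius map. -/
def JobUn : Prop := ∀ (D : ChevalleyDatum) [RS D] [Tab D] [Comm D] (K : Type) [Field K] [Fintype K],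
  ∃ σ : Ga D K →* Ga D K, Stb σ ∧ Fx σ (D.group K) ∧ LA σ id (Fintype.card K)

/-- The graph-field maps. -/
def JobTG : Prop := ∀ (K : Type) [Field K] [Fintype K] (q : ℕ), IsPrimePow q →
  (Fintype.card K = q ^ 2 → ∃ σ : Ga chevE6 K →* Ga chevE6 K,
    Stb σ ∧ Fx σ (twistedE6 K q) ∧ LA σ H68.piE6 q) ∧
  (Fintype.card K = q ^ 3 → ∃ σ : Ga chevD4 K →* Ga chevD4 K,
    Stb σ ∧ Fx σ (twistedD4 K q) ∧ LA σ H68.piD4 q)

/-- The special isogenies. -/
def JobTI : Prop := ∀ (K : Type) [Field K] [Fintype K] (m : ℕ),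
  (Fintype.card K = 2 ^ (2 * m + 1) → ∃ σ : Ga chevF4 K →* Ga chevF4 K,
    Stb σ ∧ Fx σ (twistedF4 K (2 ^ m))) ∧
  (Fintype.card K = 3 ^ (2 * m + 1) → ∃ σ : Ga chevG2 K →* Ga chevG2 K,
    Stb σ ∧ Fx σ (twistedG2 K (3 ^ m)))

/-- `E₆` and `²E₆` have non-abelian Sylow `3`-subgroups. -/
def JobE3 : Prop := Red → ∀ (K : Type) [Field K] [Fintype K], Ph 3 ↥(chevE6.group K) ∧
  ∀ q, IsPrimePow q → Fintype.card K = q ^ 2 → Ph 3 ↥(twistedE6 K q)

/-- `²F₄` has non-abelian Sylow `3`-subgroups. -/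
def JobF3 : Prop := Red → ∀ (K : Type) [Field K] [Fintype K] (m : ℕ),
  Fintype.card K = 2 ^ (2 * m + 1) → Ph 3 ↥(twistedF4 K (2 ^ m))

/-! ### Classical groups -/

/-- A group of isometries that is closed under cutting off a nondegenerate subspace. -/
structure Cut {F V G : Type} [Field F] [AddCommGroup V] [Module F V] [Group G]
    (ρ : G →* (V ≃ₗ[F] V)) (β : V →ₗ[F] V →+ F) : Prop where
  inj : Function.Injective ρ
  refl : ∀ u v, β u v = 0 → β v u = 0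
  nd : ∀ v, (∀ u, β u v = 0) → v = 0
  inv : ∀ g u v, β (ρ g u) (ρ g v) = β u v
  cut : ∀ (g : G) (W : Submodule F V) (h : V ≃ₗ[F] V), (∀ w ∈ W, (∀ u ∈ W, β u w = 0) → w = 0) →
    (∀ w ∈ W, ρ g w ∈ W) → (∀ w ∈ W, h w = ρ g w) → (∀ v, (∀ u ∈ W, β u v = 0) → h v = v) →
    h ∈ ρ.range

def JobCF : Prop := ∀ (F V G : Type) [Field F] [Finite F] [AddCommGroup V] [Module F V]
  [FiniteDimensional F V] [Group G] (ρ : G →* (V ≃ₗ[F] V)) (β : V →ₗ[F] V →+ F) (p : ℕ),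
  OP p → (p : F) ≠ 0 → Cut ρ β → Ph p G

def JobCG : Prop := ∀ (F : Type) [Field F] [Finite F] (n p : ℕ), OP p → (p : F) ≠ 0 →
  Ph p (GL (Fin n) F)

def JobPL : Prop := Red → JobCG → ∀ (F : Type) [Field F] [Fintype F] (n p : ℕ), OP p → (p : F) ≠ 0 →
  ¬ (p ∣ n ∧ p ∣ Fintype.card F - 1) → Ph p (Matrix.ProjectiveSpecialLinearGroup (Fin n) F)

def JobDL : Prop := Red → ∀ (F : Type) [Field F] [Fintype F] (n p : ℕ), OP p → 0 < n → p ∣ n →
  p ∣ Fintype.card F - 1 → Ph p (Matrix.ProjectiveSpecialLinearGroup (Fin n) F)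

def JobPU : Prop := Red → JobCF → ∀ (F : Type) [Field F] [Fintype F] (n q p : ℕ), OP p →
  (p : F) ≠ 0 → Fintype.card F = q ^ 2 → 3 ≤ n → ¬ (p ∣ n ∧ p ∣ q + 1) → Ph p (Cfsg.PSU n F q)

def JobDU : Prop := Red → ∀ (F : Type) [Field F] [Fintype F] (n q p : ℕ), OP p →
  Fintype.card F = q ^ 2 → 3 ≤ n → p ∣ n → p ∣ q + 1 → Ph p (Cfsg.PSU n F q)

def JobPS : Prop := Red → JobCF → ∀ (F : Type) [Field F] [Fintype F] (m p : ℕ), OP p →
  (p : F) ≠ 0 → 2 ≤ m → Ph p (Cfsg.PSp m F)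

def JobPO : Prop := Red → JobCF → ∀ (F : Type) [Field F] [Fintype F] (m p : ℕ), OP p → (p : F) ≠ 0 →
  3 ≤ m → (Odd (Fintype.card F) → Ph p (Cfsg.POmega F (Cfsg.quadFormOdd m F))) ∧
    Ph p (Cfsg.POmega F (Cfsg.quadFormPlus m F)) ∧
    ∀ a b : F, (∀ z₁ z₂ : F, z₁ ^ 2 + a * z₁ * z₂ + b * z₂ ^ 2 = 0 → z₁ = 0 ∧ z₂ = 0) →
      Ph p (Cfsg.POmega F (Cfsg.quadFormMinus m F a b))

/-- `A₆`, `U₃(3)` for `p = 3`, the Suzuki groups, the Tits group. -/
def JobSm : Prop := Red → (∀ p, OP p → Ph p ↥(alternatingGroup (Fin 6))) ∧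
  (∀ (F : Type) [Field F] [Fintype F], Fintype.card F = 9 → Ph 3 (Cfsg.PSU 3 F 3)) ∧
  (∀ (F : Type) [Field F] [Fintype F] (m p : ℕ), p.Prime → 1 ≤ m → Fintype.card F = 2 ^ (2 * m + 1) →
    Ph p ↥(Cfsg.Lie.Sz F (2 ^ (m + 1)))) ∧
  ∀ p, OP p → Ph p ↥(twistedF4 (ZMod 2) 1) → Ph p TitsGroup

end H90.AB
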