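import Cfsg.Agent.H60.WrKit1
import Cfsg.Agent.H60.WrSpec
import Cfsg.Agent.H19.AschUAux
import Cfsg.Agent.H59.Simple

/-! C7 tower, job GFU: facts on one unitary factor. -/

set_option autoImplicit false

namespace H90.C7

open Module H59 Matrix H60.Wr H19

section herm

variable {F V : Type*} [Field F] [Finite F] [AddCommGroup V] [Module F V] [FiniteDimensional F V]
  {σ : F →+* F} {B : V →ₛₗ[σ] V →ₗ[F] F}

theorem exists_iso_ne (h : IsHerm B) (hV : 2 ≤ finrank F V) {u : V} (hu : u ≠ 0) :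
    ∃ y, y ≠ 0 ∧ B y y = 0 ∧ B y u ≠ 0 := by
  by_cases h0 : B u u = 0
  · obtain ⟨f, h1, h2⟩ := h.exists_partner h0 hu
    refine ⟨f, ?_, h2, ?_⟩
    · rintro rfl
      simp at h1
    · rw [Ne, ← h.eq_zero_comm, h1]
      exact one_ne_zero
  · have h1 := h.finrank_add_finrank_perp (Submodule.span F {u})
    rw [finrank_span_singleton hu] at h1
    obtain ⟨v, hv, h2⟩ := h.exists_self_ne_zero_of_disjoint
      (h.disjoint_perp_perp (h.disjoint_span_singleton h0)) fun e => by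
        rw [e, finrank_bot] at h1
        omega
    obtain ⟨a, ha⟩ := h.exists_smul_norm_eq h2 (c := -B u u) (by rw [map_neg, h.self_fixed])
    have h3 : B u (a • v) = 0 := by rw [map_smul, mem_perp_singleton.1 hv, smul_zero]
    have h4 := h.eq_zero_comm.1 h3
    have h5 : B (u + a • v) u = B u u := by rw [map_add, LinearMap.add_apply, h4, add_zero]
    refine ⟨u + a • v, fun e => h0 ?_, ?_, h5 ▸ h0⟩
    · rw [← h5, e]; simp
    · rw [map_add, h5, map_add, LinearMap.add_apply, h3, ha]; simp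

theorem exists_iso_ne_ne (h : IsHerm B) (hV : 2 ≤ finrank F V) {u v : V} (hu : u ≠ 0)
    (hv : v ≠ 0) : ∃ y, y ≠ 0 ∧ B y y = 0 ∧ B y u ≠ 0 ∧ B y v ≠ 0 := by
  obtain ⟨y, h1, h2, h3⟩ := exists_iso_ne h hV hu
  obtain ⟨z, h4, h5, h6⟩ := exists_iso_ne h hV hv
  by_cases h7 : B y v = 0
  swap
  · exact ⟨y, h1, h2, h3, h7⟩
  by_cases h8 : B z u = 0
  swap
  · exact ⟨z, h4, h5, h8, h6⟩
  obtain ⟨l, hl, h9⟩ : ∃ l : F, l ≠ 0 ∧ l * B y z + σ l * B z y = 0 := by
    by_cases h0 : B z y = 0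
    · exact ⟨1, one_ne_zero, by rw [h0, h.eq_zero_comm.1 h0]; simp⟩
    · obtain ⟨d, hd, hd'⟩ := exists_trace_zero_ne_zero h.ne_id h.invol
      refine ⟨d * B z y, mul_ne_zero hd h0, ?_⟩
      rw [map_mul, h.symm]
      linear_combination (B z y * B y z) * hd'
  have h10 : B (y + l • z) u = B y u := by simp [h8]
  refine ⟨y + l • z, fun e => h3 ?_, ?_, h10 ▸ h3, ?_⟩
  · rw [← h10, e]; simp
  · simp only [map_add, LinearMap.add_apply, LinearMap.map_smulₛₗ₂, map_smul, smul_eq_mul, h2, h5]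
    linear_combination h9
  · simpa [h7, h6] using h.conj_ne_zero hl

theorem span_iso (h : IsHerm B) (hV : 2 ≤ finrank F V) {u : V} (hu : u ≠ 0) :
    Submodule.span F {y | (y ≠ 0 ∧ B y y = 0) ∧ B y u ≠ 0} = ⊤ := by
  by_contra h0
  obtain ⟨x, -, hx⟩ := SetLike.exists_of_lt (lt_top_iff_ne_top.2 h0)
  obtain ⟨d, h1, h2⟩ := h.exists_perp_ne_zero hx
  obtain ⟨y, h3, h4, h5, h6⟩ := exists_iso_ne_ne h hV hu (v := d) (by rintro rfl; simp at h2)
  exact h6 (mem_perp_span.1 h1 y ⟨⟨h3, h4⟩, h5⟩)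

theorem perp_le_span (h : IsHerm B) (hV : 4 ≤ finrank F V) {w x : V} (hw : w ≠ 0)
    (h0 : B w w = 0) (hx : B w x = 0) :
    x ∈ Submodule.span F {y | (y ≠ 0 ∧ B y y = 0) ∧ B w y = 0 ∧ y ∉ F ∙ w} := by
  obtain ⟨f, h1, h2⟩ := h.exists_partner h0 hw
  have h1' : B f w = 1 := by rw [← h.symm, h1, map_one]
  have h3 : B w f ≠ 0 := h1 ▸ one_ne_zero
  set U := perp B (Submodule.span F {w, f}) with hUd
  have hU : 2 ≤ finrank F U := by
    have := h.finrank_add_finrank_perp (Submodule.span F {w, f})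
    rw [h.finrank_span_hyp h0 h3, ← hUd] at this
    omega
  have hr := h.restrict (h.disjoint_perp_perp (h.disjoint_span_hyp h0 h3))
  obtain ⟨e, -, he, he'⟩ := hr.exists_isotropic_mem (W := ⊤) (by rwa [finrank_top])
  set S := Submodule.span F {y | (y ≠ 0 ∧ B y y = 0) ∧ B w y = 0 ∧ y ∉ F ∙ w}
  have k1 : ∀ (y : U) (c : F), y ≠ 0 → B y y = 0 → (y : V) + c • w ∈ S := fun y c hy hy' => by
    obtain ⟨k2, k3⟩ := mem_perp_pair.1 y.2
    have k4 : (y : V) + c • w ∉ F ∙ w := fun k4 => by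
      obtain ⟨a, ha⟩ := Submodule.mem_span_singleton.1
        ((Submodule.add_mem_iff_left _ (Submodule.smul_mem _ c
          (Submodule.mem_span_singleton_self w))).1 k4)
      rw [← ha, map_smul, h1', smul_eq_mul, mul_one] at k3
      exact hy (Subtype.ext (by rw [← ha, k3, zero_smul]; rfl))
    refine Submodule.subset_span ⟨⟨fun e => k4 (e ▸ Submodule.zero_mem _), ?_⟩, ?_, k4⟩
    · simp [hy', h0, k2, h.eq_zero_comm.1 k2]
    · simp [h0, k2]
  have k2 : ∀ y : U, (y : V) ∈ S := fun y => by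
    have : y ∈ S.comap U.subtype := by
      refine Submodule.span_le.2 ?_ ((span_iso hr hU he).ge Submodule.mem_top)
      rintro y ⟨⟨h4, h5⟩, -⟩
      simpa using k1 y 0 h4 h5
    exact this
  have k3 : w ∈ S := by simpa using S.sub_mem (k1 e 1 he he') (k2 e)
  have k4 : x - B f x • w ∈ U := mem_perp_pair.2 ⟨by simp [hx, h0], by simp [h1']⟩
  simpa using S.add_mem (k2 ⟨_, k4⟩) (S.smul_mem (B f x) k3)

end herm

universe u

theorem jobGFU : JobGFU.{u} := by
  intro F _ _ k B Γ ⟨a, ha⟩ hε hk hΓ hS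
  have hτ : ∀ x, B.σ x = (B.σ : F →+* F) x := fun _ => rfl
  have h := B.isHerm hε hτ fun e => ha (congrArg (fun f : F →+* F => f a) e)
  have hH : ∀ x y, B.toHerm _ hτ x y = B.f y x := fun _ _ => rfl
  have hd : finrank F (Fin k → F) = k := by simp
  have br : ∀ g ∈ sisom (B.toHerm _ hτ), ∃ s ∈ Γ, ∀ x, (s : Mk k F) *ᵥ x = g x := fun g hg => by
    obtain ⟨s, rfl⟩ := (glEquiv (Fin k) F).surjective g
    refine ⟨s, hS s (B.mem_Iso.2 fun u v => hg.1 v u) ?_, fun _ => rfl⟩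
    have := (mem_sisom.1 hg).2
    rw [det_glEquiv] at this
    exact congrArg Units.val this
  have rfv : ∀ x y z, rf B x y *ᵥ z = B.f z y • x := fun x y z => by
    rw [ro_mulVec, B.eq_dot, dotProduct_comm]; rfl
  have inn : ∀ (X : Mk k F), ∀ g ∈ sisom (B.toHerm _ hτ), (∀ x, g x = X *ᵥ x) → In Γ X :=
    fun X g hg hX => by
      obtain ⟨s, h1, h2⟩ := br g hg
      exact ⟨s, h1, Matrix.ext_of_mulVec_single fun i => (h2 _).trans (hX _)⟩
  refine ⟨⟨hΓ, ?_, fun x hx y hy => ?_, fun w v hw hv => ?_, fun w hw => ?_, fun u v hu hv => ?_,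
    fun u hu => ?_⟩, fun h4 => ⟨fun w hw x hx => ?_, fun x hx y hy => ?_, fun x hx y hy h1 h2 => ?_⟩,
    fun x hx c hc => ?_⟩
  · obtain ⟨e, -, h1, h2⟩ := h.exists_isotropic_mem (W := ⊤) (by rw [finrank_top]; omega)
    exact ⟨e, h1, h2⟩
  · obtain ⟨g, hg, h1⟩ := h.exists_sisom_isotropic (by omega) hx.1 hy.1 hx.2 hy.2
    obtain ⟨s, h2, h3⟩ := br g hg
    exact ⟨s, h2, (h3 x).trans h1⟩
  · obtain ⟨c, hc⟩ := exists_trace_eq h.ne_id h.invol (h.self_fixed v)
    obtain ⟨g, hg, h1⟩ := h.exists_eichler (e := w) (u := v) hw hv hc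
    refine ⟨c, inn _ g hg fun x => ?_⟩
    rw [h1, sub_mulVec, sub_mulVec, add_mulVec, smul_mulVec, smul_mulVec, rfv, rfv, rfv, hε,
      one_mulVec, one_smul, smul_smul]
    rfl
  · obtain ⟨f, h1, h2⟩ := h.exists_partner hw.2 hw.1
    refine ⟨f, ⟨?_, h2⟩, ?_⟩
    · rintro rfl
      simp at h1
    · rw [B.symm, hε, one_mul, ← hH, h1, map_one]
  · obtain ⟨y, h1, h2, h3, h4⟩ := exists_iso_ne_ne h (by omega) hu hv
    exact ⟨y, ⟨h1, h2⟩, h3, h4⟩
  · exact span_iso h (by omega) hu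
  · exact perp_le_span h (by omega) hw.1 hw.2 hx
  · have h1 := h.finrank_add_finrank_perp (Submodule.span F {x, y})
    have h2 : finrank F (Submodule.span F ({x, y} : Set (Fin k → F))) ≤ 2 := by
      classical
      refine (finrank_span_le_card _).trans ?_
      simpa using Finset.card_le_two
    obtain ⟨z, h3, h5, h6⟩ := h.exists_isotropic_mem
      (W := perp (B.toHerm _ hτ) (Submodule.span F {x, y})) (by omega)
    exact ⟨z, ⟨h5, h6⟩, mem_perp_pair.1 h3⟩
  · obtain ⟨f, h3, h5, h6⟩ := h.exists_partner_perp hx.2 h2 (mem_perp_singleton.2 h1)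
    refine ⟨f, ⟨?_, h6⟩, ?_, B.eq_zero_comm.1 (mem_perp_singleton.1 h3)⟩
    · rintro rfl
      simp at h5
    · rw [B.symm, hε, one_mul, ← hH, h5, map_one]
  · have h1 : c + (B.σ : F →+* F) c + c * (B.σ : F →+* F) c * B.toHerm _ hτ x x = 0 := by
      rw [hH, hx, mul_zero, add_zero]; exact hc
    refine inn _ (qref _ x c h1) ⟨h.qref_mem_isom x c h1, Units.ext ?_⟩ fun y => ?_
    · exact (det_qref x c h1).trans (by rw [hH, hx]; simp)
    · rw [qref_apply, add_mulVec, smul_mulVec, rfv, one_mulVec, smul_smul]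
      rfl

end H90.C7
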