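import Cfsg.Agent.H34.KgvE

/-!
# The equality case of the k(GV) bound (from a good class function on the stabiliser)
-/

set_option autoImplicit false
set_option linter.unusedSectionVars false

open scoped ComplexConjugate

namespace H90.KgvEq

open Cfsg H28 H29 H40 H34

theorem norm_eq_one_of_gal {ι : Type*} (s : Finset ι) (c : ι → ℂ)
    (hi : ∀ i ∈ s, IsIntegral ℤ (c i)) (h0 : ∀ i ∈ s, c i ≠ 0)
    (h : ∀ σ : ℂ ≃+* ℂ, ∑ i ∈ s, ‖σ (c i)‖ ^ 2 ≤ (s.card : ℝ)) : ∀ i ∈ s, ‖c i‖ = 1 := by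
  have hne : ∀ σ : ℂ ≃+* ℂ, ∀ i ∈ s, ‖σ (c i)‖ ^ 2 ≠ 0 := fun σ i hi =>
    pow_ne_zero _ (norm_ne_zero_iff.2 ((map_ne_zero σ).2 (h0 i hi)))
  have hpos : ∀ σ : ℂ ≃+* ℂ, ∀ i ∈ s, 0 < ‖σ (c i)‖ ^ 2 := fun σ i hi =>
    lt_of_le_of_ne (by positivity) (hne σ i hi).symm
  have e1 : ∀ σ : ℂ ≃+* ℂ, ∑ i ∈ s, Real.log (‖σ (c i)‖ ^ 2) =
      Real.log (‖σ (∏ i ∈ s, c i)‖ ^ 2) := fun σ => by
    rw [← Real.log_prod (hne σ), Finset.prod_pow, ← norm_prod, ← map_prod]
  have e2 : ∀ σ : ℂ ≃+* ℂ, ∑ i ∈ s, (‖σ (c i)‖ ^ 2 - 1) ≤ 0 := fun σ => by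
    rw [Finset.sum_sub_distrib, Finset.sum_const, nsmul_eq_mul, mul_one]
    linarith [h σ]
  have key : ∀ σ : ℂ ≃+* ℂ, ‖σ (∏ i ∈ s, c i)‖ ≤ 1 := fun σ => by
    have h1 : ∑ i ∈ s, Real.log (‖σ (c i)‖ ^ 2) ≤ ∑ i ∈ s, (‖σ (c i)‖ ^ 2 - 1) :=
      Finset.sum_le_sum fun i hi => Real.log_le_sub_one_of_pos (hpos σ i hi)
    rw [e1] at h1
    by_contra h3
    have h4 : 1 < ‖σ (∏ i ∈ s, c i)‖ ^ 2 := one_lt_pow₀ (not_le.1 h3) two_ne_zero
    linarith [Real.log_pos h4, e2 σ]
  obtain ⟨n, hn, h1⟩ := exists_pow_eq_one_of_forall_norm_le (Finset.prod_ne_zero_iff.2 h0)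
    (IsIntegral.prod _ hi) key
  have h2 := Complex.norm_eq_one_of_pow_eq_one h1 hn.ne'
  intro i his
  by_contra hne1
  have h3 : ∑ j ∈ s, Real.log (‖(RingEquiv.refl ℂ) (c j)‖ ^ 2) <
      ∑ j ∈ s, (‖(RingEquiv.refl ℂ) (c j)‖ ^ 2 - 1) :=
    Finset.sum_lt_sum (fun j hj => Real.log_le_sub_one_of_pos (hpos _ j hj))
      ⟨i, his, Real.log_lt_sub_one_of_pos (hpos _ i his) fun e => hne1 (by
        rw [RingEquiv.refl_apply] at e
        exact (pow_eq_one_iff_of_nonneg (norm_nonneg _) two_ne_zero).1 e)⟩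
  rw [e1, RingEquiv.refl_apply, h2, one_pow, Real.log_one] at h3
  linarith [e2 (RingEquiv.refl ℂ)]

theorem pnil_conj {p : ℕ} {z : ℂ} (h : PNil p z) : PNil p (conj z) := by
  obtain ⟨a, rfl, n, hn⟩ := h
  obtain ⟨b, hb⟩ := Ideal.mem_span_singleton'.1 hn
  refine ⟨⟨conj (a : ℂ), H34.isIntegral_conj a.2⟩, rfl, n,
    Ideal.mem_span_singleton'.2 ⟨⟨conj (b : ℂ), H34.isIntegral_conj b.2⟩, Subtype.ext ?_⟩⟩
  have := congrArg (fun t : AlgInt => conj (t : ℂ)) hb
  simpa using this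

/-- Equality in Knörr's criterion: all inner products of `g` with irreducible characters have
absolute value one. -/
theorem knorr_eq {X : Type*} [Group X] [Finite X] {p : ℕ} [hp : Fact p.Prime] {V G : Subgroup X}
    [V.Normal] (hVp : IsPGroup p V) (hidx : ¬ p ∣ V.index)
    (hab : ∀ a ∈ V, ∀ b ∈ V, a * b = b * a) (hGV : Subgroup.IsComplement' V G) {v : X}
    (hv : v ∈ V) {H : Subgroup X} (hH : H = G ⊓ Subgroup.centralizer ({v} : Set X)) [Fintype H]
    {g : H → ℂ} (hg : AS g)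
    (hn : ∀ (σ : ℂ ≃+* ℂ) h, ‖σ (g h)‖ ^ 2 * Nat.card ↥(V ⊓ Subgroup.centralizer ({h.1} : Set X)) ≤
      Nat.card V) (h1 : IsIntegral ℤ (g 1)⁻¹) (h0 : g 1 ≠ 0) (hP : ∀ h, h ≠ 1 → PNil p (g h))
    (hk' : Nat.card (ConjClasses X) = Nat.card V) (ψ₀ : IrrCharacter H) :
    ‖classInner g ψ₀.1‖ = 1 := by
  classical
  have := Fintype.ofFinite X
  have hG : ¬ p ∣ Nat.card G := by rwa [← hGV.symm.index_eq_card]
  have hH' : ¬ p ∣ Nat.card H := fun h => hG (h.trans (Subgroup.card_dvd_of_le (hH ▸ inf_le_left)))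
  obtain ⟨k, hk⟩ := hVp.exists_card_eq
  have hcop : (Nat.card V).Coprime (Nat.card G) := by
    rw [hk]; exact ((Nat.Prime.coprime_iff_not_dvd hp.out).2 hG).pow_left _
  have hvk : v ^ p ^ k = 1 := by
    rw [← hk]; exact congrArg Subtype.val (pow_card_eq_one' (x := (⟨v, hv⟩ : V)))
  let F : IrrCharacter X → H → ℂ := fun χ => g * fun h : H => χ.1 (v * h)
  have hF : ∀ χ, AS (F χ) := fun χ => hg.mul (as_translate χ.2.isCharacter (hH ▸ inf_le_right))
  have key := norm_eq_one_of_gal Finset.univ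
    (fun q : IrrCharacter X × IrrCharacter H => classInner (F q.1) q.2.1)
    (fun q _ => (hF q.1).2 _ q.2.2) (fun q _ h => ?_)
    fun σ => ?_
  · have h2 := key (⟨1, isIrrCharacter_one⟩, ψ₀) (Finset.mem_univ _)
    have e : F ⟨1, isIrrCharacter_one⟩ = g := by
      ext h; simp [F]
    simpa only [e] using h2
  · obtain ⟨χ, ψ⟩ := q
    have e := card_mul_classInner (F χ) ψ.1
    simp only at h
    rw [h, mul_zero, ← Finset.add_sum_erase _ _ (Finset.mem_univ 1)] at e
    have h2 : PNil p (F χ 1 * conj (ψ.1 1)) := by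
      rw [eq_neg_of_add_eq_zero_left e.symm]
      exact (pnil_sum _ _ fun h hh => ((hP h (Finset.ne_of_mem_erase hh)).mul_right
        (χ.2.isCharacter.isIntegral _)).mul_right
          (H34.isIntegral_conj (ψ.2.isCharacter.isIntegral _))).neg
    have h3 := ((pnil_char_sub_one hp.out χ.2.isCharacter hvk).mul_left (hg.int 1)).mul_right
      (H34.isIntegral_conj (ψ.2.isCharacter.isIntegral 1))
    have h4 := h2.sub h3
    have h5 : F χ 1 * conj (ψ.1 1) - g 1 * (χ.1 v - χ.1 1) * conj (ψ.1 1) =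
        g 1 * charDegree χ.1 * charDegree ψ.1 := by
      simp only [F, Pi.mul_apply, Subgroup.coe_one, mul_one]
      rw [← ψ.2.cast_charDegree, ← χ.2.cast_charDegree, Complex.conj_natCast]; ring
    rw [h5] at h4
    exact not_pnil_mul hp.out (fun h => hidx (h.trans (χ.2.charDegree_dvd_index V hab)))
      (fun h => hH' (h.trans ψ.2.charDegree_dvd_card)) h1 h0 h4
  · rw [Finset.card_univ, Fintype.card_prod, ← Nat.card_eq_fintype_card,
      ← Nat.card_eq_fintype_card, card_irr_eq_card_conjClasses, card_irr_eq_card_conjClasses, hk',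
      Nat.cast_mul]
    rw [Fintype.sum_prod_type, Finset.sum_congr rfl fun χ _ => sum_norm_gal_inner (hF χ).1 σ,
      ← Finset.mul_sum, Finset.sum_comm, inv_mul_le_iff₀ (Nat.cast_pos.2 Nat.card_pos)]
    have e : (Nat.card H : ℝ) * (Nat.card V * Nat.card (ConjClasses H)) =
        ∑ h : H, (Nat.card V : ℝ) * Nat.card (Subgroup.centralizer ({h} : Set H)) := by
      rw [← Finset.mul_sum, ← Nat.cast_sum, sum_card_centralizer]; push_cast; ring
    rw [e]
    refine Finset.sum_le_sum fun h _ => ?_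
    simp only [F, Pi.mul_apply, map_mul, norm_mul, mul_pow]
    rw [← Finset.mul_sum, sum_norm_gal_col]
    refine le_trans (mul_le_mul_of_nonneg_left (Nat.cast_le.2 (card_cent_le hab hGV hcop hv hH h))
      (by positivity)) ?_
    rw [Nat.cast_mul, ← mul_assoc]
    exact mul_le_mul_of_nonneg_right (hn σ h) (by positivity)

/-- The congruences, from a class function with inner products and value at one of norm one. -/
theorem congr_of {H : Type*} [Group H] [Fintype H] {p : ℕ} [hp : Fact p.Prime] {g : H → ℂ}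
    (hg : AS g) (hg1 : ‖g 1‖ = 1) (hP : ∀ h, h ≠ 1 → PNil p (g h))
    (hc : ∀ ψ : IrrCharacter H, ‖classInner g ψ.1‖ = 1) :
    (Nat.ModEq p (Nat.card H) 1 ∨ Nat.ModEq p (Nat.card H + 1) 0) ∧
      Nat.ModEq p (Nat.card (ConjClasses H)) (Nat.card H) := by
  classical
  have main : ∀ ψ : IrrCharacter H,
      (p : ℤ) ∣ (Nat.card H : ℤ) ^ 2 - (charDegree ψ.1 : ℤ) ^ 2 := fun ψ => by
    have e := card_mul_classInner g ψ.1
    rw [← Finset.add_sum_erase _ _ (Finset.mem_univ 1)] at e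
    have h2 : PNil p ((Nat.card H : ℂ) * classInner g ψ.1 - g 1 * charDegree ψ.1) := by
      rw [e, ← ψ.2.cast_charDegree, Complex.conj_natCast, add_sub_cancel_left]
      exact pnil_sum _ _ fun h hh => (hP h (Finset.ne_of_mem_erase hh)).mul_right
        (H34.isIntegral_conj (ψ.2.isCharacter.isIntegral _))
    have h3 := pnil_conj h2
    rw [map_sub, map_mul, map_mul, Complex.conj_natCast, Complex.conj_natCast] at h3
    have i1 : IsIntegral ℤ ((Nat.card H : ℂ) * conj (classInner g ψ.1)) :=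
      (isIntegral_natCast _).mul (H34.isIntegral_conj (hg.2 _ ψ.2))
    have i2 : IsIntegral ℤ (g 1 * charDegree ψ.1) := (hg.int 1).mul (isIntegral_natCast _)
    have h4 := (h2.mul_right i1).add (h3.mul_left i2)
    have n1 : classInner g ψ.1 * conj (classInner g ψ.1) = 1 := by
      rw [Complex.mul_conj, Complex.normSq_eq_norm_sq, hc ψ]; simp
    have n2 : g 1 * conj (g 1) = 1 := by
      rw [Complex.mul_conj, Complex.normSq_eq_norm_sq, hg1]; simp
    refine PNil.dvd_int hp.out ?_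
    convert h4 using 1
    push_cast
    linear_combination (-(Nat.card H : ℂ) ^ 2) * n1 + (charDegree ψ.1 : ℂ) ^ 2 * n2
  have d1 : charDegree (1 : H → ℂ) = 1 := by
    have := (isIrrCharacter_one (G := H)).cast_charDegree
    exact_mod_cast this
  have m1 := main ⟨1, isIrrCharacter_one⟩
  simp only [d1, Nat.cast_one, one_pow] at m1
  refine ⟨?_, ?_⟩
  · have : (p : ℤ) ∣ ((Nat.card H : ℤ) - 1) * ((Nat.card H : ℤ) + 1) := by
      convert m1 using 1; ring
    rcases (Nat.prime_iff_prime_int.1 hp.out).dvd_or_dvd this with h | h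
    · exact Or.inl ((Nat.modEq_iff_dvd.2 (by simpa using h)).symm)
    · exact Or.inr ((Nat.modEq_iff_dvd.2 (by simpa using h)).symm)
  · have s1 : ∑ ψ : IrrCharacter H, ((charDegree ψ.1 : ℤ) ^ 2) = Nat.card H := by
      have := sum_degree_sq (G := H)
      rw [Finset.sum_congr rfl fun χ _ => by rw [← χ.2.cast_charDegree]] at this
      exact_mod_cast this
    refine Nat.modEq_iff_dvd.2 ?_
    rw [← card_irr_eq_card_conjClasses, ← s1, Nat.card_eq_fintype_card, ← Finset.card_univ,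
      Finset.card_eq_sum_ones, Nat.cast_sum, ← Finset.sum_sub_distrib]
    refine Finset.dvd_sum fun ψ _ => ?_
    have := m1.sub (main ψ)
    convert this using 1
    push_cast; ring

universe u

/-- S4960 from the existence of good class functions. -/
theorem s4960_of {X : Type u} [Group X] [Finite X] (p : ℕ) [hp : Fact p.Prime] (V : Subgroup X)
    [V.Normal]
    (gam : ∀ (H : Type u) [Group H] [Fintype H] (W : Type u) [AddCommGroup W] [Module (ZMod p) W]
      [Finite W] (ρ : Representation (ZMod p) H W), ¬ p ∣ Nat.card H → ∃ g, KGood ρ g)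
    (hVexp : ∀ v ∈ V, v ^ p = 1) (hidx : ¬ p ∣ V.index)
    (hself : Subgroup.centralizer (V : Set X) = V) (G : Subgroup X)
    (hGV : Subgroup.IsComplement' V G) (hk : Nat.card (ConjClasses X) = Nat.card V) (v : X)
    (hv : v ∈ V) :
    (Nat.ModEq p (Nat.card ↥(G ⊓ Subgroup.centralizer ({v} : Set X))) 1 ∨
      Nat.ModEq p (Nat.card ↥(G ⊓ Subgroup.centralizer ({v} : Set X)) + 1) 0) ∧
    Nat.ModEq p (Nat.card (ConjClasses ↥(G ⊓ Subgroup.centralizer ({v} : Set X))))
      (Nat.card ↥(G ⊓ Subgroup.centralizer ({v} : Set X))) := by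
  have := Fintype.ofFinite ↥(G ⊓ Subgroup.centralizer ({v} : Set X))
  have ea : H49.IsEA p V := ⟨fun a b => Subtype.ext (hself.ge b.2 a a.2),
    fun a => Subtype.ext (hVexp a a.2)⟩
  let φ := (MulAut.conjNormal (H := V)).comp (G ⊓ Subgroup.centralizer ({v} : Set X)).subtype
  have hφ : ∀ h u, (φ h u : X) = h * u * (h : X)⁻¹ := fun _ _ => rfl
  have hf : Function.Injective φ := (injective_iff_map_eq_one φ).2 fun h hh => Subtype.ext
      (Subgroup.disjoint_def.1 hGV.disjoint (hself.le fun u hu => by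
        exact (mul_inv_eq_iff_eq_mul.1
          (congrArg Subtype.val (DFunLike.congr_fun hh ⟨u, hu⟩))).symm) h.2.1)
  obtain ⟨g, hg⟩ := gam ↥(G ⊓ Subgroup.centralizer ({v} : Set X)) ea.V (ea.rep φ)
    (fun h => hidx (hGV.symm.index_eq_card ▸ h.trans (Subgroup.card_dvd_of_le inf_le_left)))
  have hP : ∀ h, h ≠ 1 → PNil p (g h) := fun h hh =>
    hg.nil h fun e => hh (hf (((ea.rep_eq_one_iff φ h).1 e).trans (map_one φ).symm))
  have hn : ∀ (σ : ℂ ≃+* ℂ) h, ‖σ (g h)‖ ^ 2 *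
      Nat.card ↥(V ⊓ Subgroup.centralizer ({h.1} : Set X)) ≤ Nat.card V := fun σ h => by
    have h1 := hg.le σ h
    have h2 : Nat.card {x // ea.rep φ h x = x} =
        Nat.card ↥(V ⊓ Subgroup.centralizer ({h.1} : Set X)) := by
      rw [← Nat.card_congr (Subgroup.subgroupOfEquivOfLe
        (inf_le_left : V ⊓ Subgroup.centralizer ({h.1} : Set X) ≤ V)).toEquiv]
      refine Nat.card_congr (ea.of.subtypeEquiv fun u => ?_).symm
      rw [ea.rep_of, ea.of.apply_eq_iff_eq, Subtype.ext_iff, hφ, Subgroup.mem_subgroupOf,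
        Subgroup.mem_inf, mem_centralizer_singleton, mul_inv_eq_iff_eq_mul, eq_comm]
      exact and_iff_right u.2
    rwa [h2, ea.card_V] at h1
  have hg1 : ‖g 1‖ = 1 := norm_eq_one_of_gal ({()} : Finset Unit) (fun _ => g 1)
    (fun _ _ => hg.as.int 1) (fun _ _ => hg.ne) (fun σ => by
      have h1 := hn σ 1
      have e : V ⊓ Subgroup.centralizer
          ({(1 : ↥(G ⊓ Subgroup.centralizer ({v} : Set X))).1} : Set X) = V :=
        inf_eq_left.2 fun x _ => mem_centralizer_singleton.2 (by simp)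
      rw [e] at h1
      have hpos : (0 : ℝ) < Nat.card V := Nat.cast_pos.2 Nat.card_pos
      simpa using le_of_mul_le_mul_right (h1.trans (one_mul _).ge) hpos) () (by simp)
  exact congr_of hg.as hg1 hP (knorr_eq
    (fun x => ⟨1, Subtype.ext (by simpa using hVexp x x.2)⟩) hidx
    (fun a ha b hb => (hself.ge hb a ha)) hGV hv rfl hg.as hn hg.int hg.ne hP hk)

end H90.KgvEq
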