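import Cfsg.Agent.H11.QdSylow
import Cfsg.Prelude.Def_LocalEven

/-! Coordinates for a natural `SL₂(F)`-module inside a group. -/

set_option autoImplicit false

open Matrix MatrixGroups Subgroup H11
open scoped commutatorElement

namespace H90.NM

variable {G : Type*} [Group G] {F : Type*} [Field F] {V L T : Subgroup G}

/-- normal form: `e` parametrises `V`, `r` parametrises `L`, and `T` is the unitriangular group -/
structure NF (V L T : Subgroup G) (e : F → F → G) (r : SL(2, F) →* G) : Prop where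
  add : ∀ a b c d, e (a + c) (b + d) = e a b * e c d
  inj : ∀ {a b c d}, e a b = e c d → a = c ∧ b = d
  memV : ∀ {x}, x ∈ V ↔ ∃ a b, e a b = x
  rinj : Function.Injective r
  memL : ∀ {x}, x ∈ L ↔ ∃ m, r m = x
  act : ∀ m a b, r m * e a b * (r m)⁻¹ = e (m 0 0 * a + m 0 1 * b) (m 1 0 * a + m 1 1 * b)
  memT : ∀ {x}, x ∈ T ↔ ∃ b, r (uMat b) = x

theorem exists_nf [Finite G] {p : ℕ} [Fact p.Prime] [CharP F p]
    (h : Cfsg.IsNaturalSL2Module F V L) (hf : L ⊓ centralizer (V : Set G) = ⊥) (S : Sylow p L) :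
    ∃ (e : F → F → G) (r : SL(2, F) →* G), NF V L ((S : Subgroup L).map L.subtype) e r := by
  obtain ⟨-, ρ, ψ, h1, h2, h3⟩ := h
  have h4 : Function.Injective ρ := by
    rw [← MonoidHom.ker_eq_bot_iff, h2, eq_bot_iff]
    intro x hx
    exact Subtype.ext (hf.le ⟨x.2, hx⟩)
  let σ := MulEquiv.ofBijective ρ ⟨h4, h1⟩
  haveI : Finite SL(2, F) := Finite.of_surjective _ h1
  obtain ⟨g, hg⟩ := MulAction.exists_smul_eq SL(2, F) (sylU p) (S.mapSurjective h1)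
  let r : SL(2, F) →* G := L.subtype.comp ((σ.symm : _ →* L).comp (MulAut.conj g).toMonoidHom)
  let e : F → F → G := fun a b => (ψ.symm ((g : Matrix _ _ F) *ᵥ ![a, b])).toMul
  have hr : ∀ m, ∃ l : L, (l : G) = r m ∧ ρ l = g * m * g⁻¹ :=
    fun m => ⟨σ.symm _, rfl, σ.apply_symm_apply _⟩
  have mv : ∀ (x y : SL(2, F)) (v : Fin 2 → F), x.1 *ᵥ y.1 *ᵥ v = (x * y).1 *ᵥ v :=
    fun x y v => mulVec_mulVec _ _ _
  have ov : ∀ v : Fin 2 → F, (1 : SL(2, F)).1 *ᵥ v = v := fun v => one_mulVec _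
  refine ⟨e, r, fun a b c d => ?_, fun {a b c d} h => ?_, fun {x} => ⟨fun hx => ?_, ?_⟩,
    L.subtype_injective.comp (σ.symm.injective.comp (MulAut.conj g).injective),
    fun {x} => ⟨fun hx => ?_, ?_⟩, fun m a b => ?_, fun {x} => ⟨?_, ?_⟩⟩
  · have : ![a + c, b + d] = ![a, b] + ![c, d] := by simp
    simp only [e, this, mulVec_add, map_add, toMul_add, coe_mul]
  · have h5 := ψ.symm.injective (Additive.toMul.injective (Subtype.ext h))
    have h6 := congrArg ((g⁻¹ : SL(2, F)).1 *ᵥ ·) h5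
    simp only [mv, inv_mul_cancel, ov] at h6
    exact ⟨congrFun h6 0, congrFun h6 1⟩
  · set v := (g⁻¹ : SL(2, F)).1 *ᵥ ψ (.ofMul ⟨x, hx⟩) with hv
    refine ⟨v 0, v 1, ?_⟩
    have : ![v 0, v 1] = v := by ext i; fin_cases i <;> rfl
    simp only [e, this]
    rw [hv, mv, mul_inv_cancel, ov]
    simp
  · rintro ⟨a, b, rfl⟩
    exact Subtype.property _
  · exact ⟨g⁻¹ * σ ⟨x, hx⟩ * g, by simp [r, mul_assoc]⟩
  · rintro ⟨m, rfl⟩
    exact Subtype.property _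
  · obtain ⟨l, h5, h6⟩ := hr m
    obtain ⟨w, h7, h8⟩ := h3 l (ψ.symm ((g : Matrix _ _ F) *ᵥ ![a, b])).toMul
    rw [← h5]
    refine h7.symm.trans ?_
    have : ![m 0 0 * a + m 0 1 * b, m 1 0 * a + m 1 1 * b] = (m : Matrix _ _ F) *ᵥ ![a, b] := by
      ext i; fin_cases i <;> simp [mulVec, dotProduct]
    simp only [e, this]
    rw [h6, ofMul_toMul, AddEquiv.apply_symm_apply, mv, inv_mul_cancel_right, ← mv] at h8
    rw [← h8]
    simp
  · rintro ⟨l, hl, rfl⟩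
    have h5 : ρ l ∈ (S.mapSurjective h1 : Subgroup _) := ⟨l, hl, rfl⟩
    rw [← hg] at h5
    obtain ⟨_, ⟨b, rfl⟩, h6⟩ := h5
    refine ⟨b.toAdd, congrArg Subtype.val (?_ : σ.symm _ = l)⟩
    rw [MulEquiv.symm_apply_eq]
    exact h6
  · rintro ⟨b, rfl⟩
    have h5 : g * uMat b * g⁻¹ ∈ (S.mapSurjective h1 : Subgroup _) := by
      rw [← hg]
      exact ⟨_, uMat_mem_uSub b, rfl⟩
    obtain ⟨l, hl, h6⟩ := h5
    exact ⟨l, hl, congrArg Subtype.val ((MulEquiv.symm_apply_eq σ).2 h6.symm).symm⟩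

namespace NF

variable {e : F → F → G} {r : SL(2, F) →* G}

theorem zero (h : NF V L T e r) : e 0 0 = 1 := by
  have := h.add 0 0 0 0
  simpa using this

theorem inv (h : NF V L T e r) (a b : F) : (e a b)⁻¹ = e (-a) (-b) := by
  rw [inv_eq_iff_mul_eq_one, ← h.add, add_neg_cancel, add_neg_cancel, h.zero]

theorem mem (h : NF V L T e r) (a b : F) : e a b ∈ V := h.memV.2 ⟨a, b, rfl⟩

theorem comm (h : NF V L T e r) (a b c d : F) : e a b * e c d = e c d * e a b := by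
  rw [← h.add, ← h.add, add_comm a, add_comm b]

theorem commute_iff (h : NF V L T e r) (m : SL(2, F)) (a b : F) : r m * e a b = e a b * r m ↔
    m 0 0 * a + m 0 1 * b = a ∧ m 1 0 * a + m 1 1 * b = b := by
  rw [← mul_inv_eq_iff_eq_mul, h.act]
  exact ⟨h.inj, fun ⟨h1, h2⟩ => by rw [h1, h2]⟩

theorem memC (h : NF V L T e r) {x : G} : x ∈ V ⊓ centralizer (T : Set G) ↔ ∃ a, e a 0 = x := by
  constructor
  · rintro ⟨h1, h2⟩
    obtain ⟨a, b, rfl⟩ := h.memV.1 h1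
    have := ((h.commute_iff _ a b).1 (h2 _ (h.memT.2 ⟨1, rfl⟩))).1
    exact ⟨a, by rw [show b = 0 by simpa using this]⟩
  · rintro ⟨a, rfl⟩
    refine ⟨h.mem _ _, fun t ht => ?_⟩
    obtain ⟨b, rfl⟩ := h.memT.1 ht
    exact (h.commute_iff _ _ _).2 (by simp)

theorem commu (h : NF V L T e r) (a b c : F) : ⁅e a b, r (uMat c)⁆ = e (-(c * b)) 0 := by
  have : ⁅e a b, r (uMat c)⁆ = e a b * (r (uMat c) * (e a b)⁻¹ * (r (uMat c))⁻¹) := by
    rw [commutatorElement_def]; group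
  rw [this, h.inv, h.act, ← h.add]
  simp

theorem comm_le (h : NF V L T e r) : ⁅V, T⁆ ≤ V ⊓ centralizer (T : Set G) := by
  refine commutator_le.2 fun v hv t ht => ?_
  obtain ⟨a, b, rfl⟩ := h.memV.1 hv
  obtain ⟨c, rfl⟩ := h.memT.1 ht
  exact h.memC.2 ⟨_, (h.commu a b c).symm⟩

theorem cardV (h : NF V L T e r) : Nat.card V = Nat.card F ^ 2 := by
  rw [pow_two, ← Nat.card_prod]
  refine (Nat.card_congr (Equiv.ofBijective (fun x : F × F => (⟨_, h.mem x.1 x.2⟩ : V))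
    ⟨fun x y k => ?_, fun x => ?_⟩)).symm
  · exact Prod.ext (h.inj (congrArg Subtype.val k)).1 (h.inj (congrArg Subtype.val k)).2
  · obtain ⟨a, b, k⟩ := h.memV.1 x.2
    exact ⟨(a, b), Subtype.ext k⟩

theorem cardC (h : NF V L T e r) : Nat.card ↥(V ⊓ centralizer (T : Set G)) = Nat.card F := by
  refine (Nat.card_congr (Equiv.ofBijective
    (fun x : F => (⟨_, h.memC.2 ⟨x, rfl⟩⟩ : ↥(V ⊓ centralizer (T : Set G))))
    ⟨fun x y k => (h.inj (congrArg Subtype.val k)).1, fun x => ?_⟩)).symm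
  obtain ⟨a, k⟩ := h.memC.1 x.2
  exact ⟨a, Subtype.ext k⟩

theorem mem_norm [Finite G] (h : NF V L T e r) {m : SL(2, F)} (hm : m 1 0 = 0) :
    r m ∈ normalizer (T : Set G) :=
  mem_normalizer_fintype fun t ht => by
    obtain ⟨c, rfl⟩ := h.memT.1 ht
    exact h.memT.2 ⟨_, by rw [← conj_uMat_of_10 hm, map_mul, map_mul, map_inv]⟩

theorem part1 (h : NF V L T e r) {s : G} (hs : s ∈ T) (h1 : s ≠ 1) :
    V ⊓ centralizer {s} = V ⊓ centralizer (T : Set G) ∧ ⁅V, T⁆ = V ⊓ centralizer (T : Set G) ∧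
      ⁅V, zpowers s⁆ = V ⊓ centralizer (T : Set G) ∧ ∀ v ∈ V, v ∉ centralizer (T : Set G) →
        closure {x : G | ∃ t ∈ T, x = v * t * v⁻¹ * t⁻¹} = V ⊓ centralizer (T : Set G) := by
  have h2 : ⁅V, zpowers s⁆ ≤ ⁅V, T⁆ := commutator_mono le_rfl (zpowers_le.2 hs)
  obtain ⟨c, rfl⟩ := h.memT.1 hs
  have hc : c ≠ 0 := by
    rintro rfl
    exact h1 (by rw [uMat_zero, map_one])
  have h3 : V ⊓ centralizer (T : Set G) ≤ ⁅V, zpowers (r (uMat c))⁆ := fun x hx => by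
    obtain ⟨a, rfl⟩ := h.memC.1 hx
    have := commutator_mem_commutator (h.mem 0 (-(a / c))) (mem_zpowers (r (uMat c)))
    rwa [h.commu, show -(c * -(a / c)) = a by field_simp] at this
  refine ⟨le_antisymm ?_ (inf_le_inf_left _ (centralizer_le (by simpa using hs))),
    le_antisymm h.comm_le (h3.trans h2), le_antisymm (h2.trans h.comm_le) h3, fun v hv h4 => ?_⟩
  · rintro x ⟨hx, h4⟩
    obtain ⟨a, b, rfl⟩ := h.memV.1 hx
    have := ((h.commute_iff _ a b).1 (h4 _ rfl)).1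
    exact h.memC.2 ⟨a, by rw [show b = 0 by simpa [hc] using this]⟩
  · refine le_antisymm ((closure_le _).2 ?_) fun x hx => ?_
    · rintro _ ⟨t, ht, rfl⟩
      exact h.comm_le (commutator_mem_commutator hv ht)
    · obtain ⟨a, b, rfl⟩ := h.memV.1 hv
      have hb : b ≠ 0 := by
        rintro rfl
        exact h4 (h.memC.2 ⟨a, rfl⟩).2
      obtain ⟨d, rfl⟩ := h.memC.1 hx
      refine subset_closure ⟨_, h.memT.2 ⟨-(d / b), rfl⟩, ?_⟩
      rw [← commutatorElement_def, h.commu, show -(-(d / b) * b) = d by field_simp]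

/-- the diagonal matrix -/
def dg (a : F) (ha : a ≠ 0) : SL(2, F) := ⟨!![a, 0; 0, a⁻¹], by simp [det_fin_two, ha]⟩

theorem act_dg (h : NF V L T e r) {c : F} (hc : c ≠ 0) (a b : F) :
    r (dg c hc) * e a b * (r (dg c hc))⁻¹ = e (c * a) (c⁻¹ * b) := by
  rw [h.act]
  simp [dg]

theorem dg_mem [Finite G] (h : NF V L T e r) {c : F} (hc : c ≠ 0) :
    r (dg c hc) ∈ L ⊓ normalizer (T : Set G) := ⟨h.memL.2 ⟨_, rfl⟩, h.mem_norm rfl⟩

theorem sum_conj [Finite G] (h : NF V L T e r) {g : G} (hg : g ∈ L) (h1 : g ∉ normalizer (T : Set G)) :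
    Cfsg.IsInternalDirectProduct (V ⊓ centralizer (T : Set G))
      (V ⊓ centralizer ((T.map (MulAut.conj g).toMonoidHom : Subgroup G) : Set G)) V := by
  obtain ⟨m, rfl⟩ := h.memL.1 hg
  have hm : m 1 0 ≠ 0 := fun h0 => h1 (h.mem_norm h0)
  have key : ∀ {x}, x ∈ V ⊓ centralizer ((T.map (MulAut.conj (r m)).toMonoidHom : Subgroup G) : Set G)
      ↔ ∃ a, e (m 0 0 * a) (m 1 0 * a) = x := by
    intro x
    constructor
    · rintro ⟨h2, h3⟩
      obtain ⟨a, b, rfl⟩ := h.memV.1 h2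
      obtain ⟨c, hc⟩ := (h.memC (x := r m⁻¹ * e a b * (r m⁻¹)⁻¹)).1 ⟨h.memV.2
        ⟨_, _, (h.act _ _ _).symm⟩, fun t ht => by
          have : r m * t * (r m)⁻¹ * e a b = e a b * (r m * t * (r m)⁻¹) := h3 _ ⟨t, ht, rfl⟩
          rw [map_inv]
          calc _ = (r m)⁻¹ * (r m * t * (r m)⁻¹ * e a b) * r m := by group
            _ = _ := by rw [this]; group⟩
      refine ⟨c, ?_⟩
      have := h.act m c 0
      rw [hc, map_inv] at this
      simpa [mul_assoc] using this.symm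
    · rintro ⟨a, rfl⟩
      refine ⟨h.mem _ _, ?_⟩
      rintro _ ⟨t, ht, rfl⟩
      have h2 := h.act m a 0
      simp only [mul_zero, add_zero] at h2
      have h3 : t * e a 0 = e a 0 * t := (h.memC.2 ⟨a, rfl⟩).2 t ht
      rw [← h2]
      show r m * t * (r m)⁻¹ * _ = _ * (r m * t * (r m)⁻¹)
      calc _ = r m * (t * e a 0) * (r m)⁻¹ := by group
        _ = _ := by rw [h3]; group
  refine ⟨inf_le_left, inf_le_left, fun x hx y hy => ?_, eq_bot_iff.2 ?_,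
    le_antisymm (sup_le inf_le_left inf_le_left) fun x hx => ?_⟩
  · obtain ⟨a, rfl⟩ := h.memC.1 hx
    obtain ⟨b, rfl⟩ := key.1 hy
    exact h.comm _ _ _ _
  · rintro x ⟨hx, hy⟩
    obtain ⟨a, rfl⟩ := h.memC.1 hx
    obtain ⟨b, hb⟩ := key.1 hy
    obtain ⟨h2, h3⟩ := h.inj hb
    have : b = 0 := (mul_eq_zero.1 h3).resolve_left hm
    rw [← h2, this, mul_zero, h.zero]
    exact one_mem _
  · obtain ⟨a, b, rfl⟩ := h.memV.1 hx
    have := mul_mem_sup (h.memC.2 ⟨a - m 0 0 * (b / m 1 0), rfl⟩) (key.2 ⟨b / m 1 0, rfl⟩)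
    rwa [← h.add, sub_add_cancel, zero_add, mul_div_cancel₀ _ hm] at this

theorem fpf {p : ℕ} [Fact p.Prime] [CharP F p] (h : NF V L T e r) {x : G} (hx : x ∈ L) (h1 : x ≠ 1)
    (h2 : (orderOf x).Coprime p) : V ⊓ centralizer {x} = ⊥ := by
  obtain ⟨m, rfl⟩ := h.memL.1 hx
  rw [eq_bot_iff]
  rintro y ⟨hy, h3⟩
  obtain ⟨a, b, rfl⟩ := h.memV.1 hy
  obtain ⟨h4, h5⟩ := (h.commute_iff m a b).1 (h3 _ rfl)
  have hd := sl_det m
  have h6 : tr m ≠ 2 := fun h6 => h1 (by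
    have h7 : r m ^ p = 1 := by rw [← map_pow, pow_char_of_tr_two p h6, map_one]
    exact orderOf_eq_one_iff.1 (h2.eq_one_of_dvd (orderOf_dvd_of_pow_eq_one h7)))
  have h7 : tr m - 2 ≠ 0 := sub_ne_zero.2 h6
  unfold tr at h7
  have ha : a = 0 := (mul_eq_zero.1 (by
    linear_combination (-(m 1 1 - 1)) * h4 + m 0 1 * h5 + a * hd :
      (m 0 0 + m 1 1 - 2) * a = 0)).resolve_left h7
  have hb : b = 0 := (mul_eq_zero.1 (by
    linear_combination (m 1 0) * h4 - (m 0 0 - 1) * h5 + b * hd :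
      (m 0 0 + m 1 1 - 2) * b = 0)).resolve_left h7
  rw [ha, hb, h.zero]
  exact one_mem _

theorem irr1 [Finite G] (h : NF V L T e r) {U : Subgroup G} (h1 : U ≤ V ⊓ centralizer (T : Set G))
    (h2 : L ⊓ normalizer (T : Set G) ≤ normalizer (U : Set G)) :
    U = ⊥ ∨ U = V ⊓ centralizer (T : Set G) := by
  refine or_iff_not_imp_left.2 fun h3 => le_antisymm h1 fun y hy => ?_
  obtain ⟨⟨x, hx⟩, h4⟩ := ne_bot_iff_exists_ne_one.1 h3
  obtain ⟨a, rfl⟩ := h.memC.1 (h1 hx)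
  have ha : a ≠ 0 := by
    rintro rfl
    exact h4 (Subtype.ext h.zero)
  obtain ⟨b, rfl⟩ := h.memC.1 hy
  by_cases hb : b = 0
  · rw [hb, h.zero]; exact one_mem _
  · have := (mem_normalizer_iff.1 (h2 (h.dg_mem (div_ne_zero hb ha))) _).1 hx
    rwa [h.act_dg, div_mul_cancel₀ _ ha, mul_zero] at this

theorem irr2 [Finite G] (h : NF V L T e r) {U : Subgroup G} (h0 : V ⊓ centralizer (T : Set G) ≤ U)
    (h1 : U ≤ V) (h2 : L ⊓ normalizer (T : Set G) ≤ normalizer (U : Set G)) :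
    U = V ⊓ centralizer (T : Set G) ∨ U = V := by
  refine or_iff_not_imp_left.2 fun h3 => le_antisymm h1 fun y hy => ?_
  obtain ⟨x, hx, h4⟩ := SetLike.exists_of_lt (lt_of_le_of_ne h0 (Ne.symm h3))
  obtain ⟨a, b, rfl⟩ := h.memV.1 (h1 hx)
  have hb : b ≠ 0 := by
    rintro rfl
    exact h4 (h.memC.2 ⟨a, rfl⟩)
  obtain ⟨c, d, rfl⟩ := h.memV.1 hy
  by_cases hd : d = 0
  · exact h0 (h.memC.2 ⟨c, by rw [hd]⟩)
  · have := (mem_normalizer_iff.1 (h2 (h.dg_mem (div_ne_zero hb hd))) _).1 hx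
    rw [h.act_dg, show (b / d)⁻¹ * b = d by field_simp] at this
    have := mul_mem (h0 (h.memC.2 ⟨c - b / d * a, rfl⟩)) this
    rwa [← h.add, sub_add_cancel, zero_add] at this

end NF

end H90.NM
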