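import Cfsg.Agent.H53.CLay
import Cfsg.Agent.H53.GUClass
import Cfsg.Agent.H59.SU

/-! Classes of elements of prime order `r` in `G / Z(G)` for `G = GL_n(q)`, `GU_n(q)`, when `r`
divides the number of scalars. -/

set_option autoImplicit false

open Polynomial H53

namespace H90.PC

section comb

/-- non-constant multisets of size `n` -/
def Y (M : Type*) (n : ℕ) := {t : Multiset M // t.card = n ∧ ∀ a, t ≠ Multiset.replicate n a}

/-- the underlying element of the symmetric power -/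
def toSym {M : Type*} {n : ℕ} (t : Y M n) : Sym M n := ⟨t.1, t.2.1⟩

theorem toSym_inj {M : Type*} {n : ℕ} : Function.Injective (toSym : Y M n → Sym M n) :=
  fun _ _ h => Subtype.ext (congrArg (fun s : Sym M n => s.1) h)

instance {M : Type*} {n : ℕ} [Finite M] : Finite (Y M n) := by
  classical
  have := Fintype.ofFinite M
  exact Finite.of_injective _ toSym_inj

variable {M : Type*} [CommGroup M] {n : ℕ}

instance : MulAction M (Y M n) where
  smul a t := ⟨t.1.map (a * ·), by simp [t.2.1], fun b h => t.2.2 (a⁻¹ * b) (by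
    have := congrArg (Multiset.map (a⁻¹ * ·)) h
    simpa [Multiset.map_map] using this)⟩
  one_smul t := Subtype.ext (by
    show t.1.map _ = t.1
    simp)
  mul_smul a b t := Subtype.ext (by
    show t.1.map _ = (t.1.map _).map _
    simp [Multiset.map_map, mul_assoc])

theorem smul_val (a : M) (t : Y M n) : (a • t).1 = t.1.map (a * ·) := rfl

omit [CommGroup M] in
theorem card_Y [Finite M] (hn : 0 < n) :
    Nat.card (Y M n) + Nat.card M = (Nat.card M + n - 1).choose n := by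
  classical
  have := Fintype.ofFinite M
  rw [Nat.card_eq_fintype_card (α := M), ← Sym.card_sym_eq_choose, ← Nat.card_eq_fintype_card,
    ← Nat.card_eq_fintype_card]
  rw [← Nat.card_sum]
  refine Nat.card_congr (Equiv.ofBijective
    (Sum.elim toSym (fun a => Sym.replicate n a)) ⟨?_, ?_⟩)
  · rintro (a | a) (b | b) h
    · exact congrArg _ (toSym_inj h)
    · exact (a.2.2 b (congrArg (fun s : Sym M n => s.1) h)).elim
    · exact (b.2.2 a (congrArg (fun s : Sym M n => s.1) h).symm).elim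
    · exact congrArg _ (Multiset.replicate_right_injective hn.ne'
        (congrArg (fun s : Sym M n => s.1) h))
  · intro s
    by_cases h : ∃ a, s.1 = Multiset.replicate n a
    · obtain ⟨a, ha⟩ := h
      exact ⟨Sum.inr a, Subtype.ext ha.symm⟩
    · exact ⟨Sum.inl ⟨s.1, s.2, fun a ha => h ⟨a, ha⟩⟩, rfl⟩

theorem card_fixedBy [Finite M] {r : ℕ} (hr : r.Prime) (hM : Nat.card M = r) (hn : 0 < n) {a : M}
    (ha : a ≠ 1) : Nat.card (MulAction.fixedBy (Y M n) a) = if r ∣ n then 1 else 0 := by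
  classical
  have := Fintype.ofFinite M
  haveI := Fact.mk hr
  have hc : (Finset.univ : Finset M).val.card = r := by
    rw [← hM, Nat.card_eq_fintype_card]; rfl
  have key : ∀ t : MulAction.fixedBy (Y M n) a, ∃ m, t.1.1 = m • (Finset.univ : Finset M).val ∧
      n = m * r := by
    intro t
    have h1 : t.1.1.map (a * ·) = t.1.1 := congrArg Subtype.val t.2
    have h2 : ∀ x, t.1.1.count (a * x) = t.1.1.count x := fun x => by
      conv_lhs => rw [← h1]
      exact Multiset.count_map_eq_count' _ _ (mul_right_injective a) x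
    have h3 : ∀ k : ℕ, t.1.1.count (a ^ k) = t.1.1.count 1 := fun k => by
      induction k with
      | zero => simp
      | succ k ih => rw [pow_succ', h2, ih]
    have h4 : t.1.1 = t.1.1.count 1 • (Finset.univ : Finset M).val := by
      ext x
      obtain ⟨k, rfl⟩ := (mem_powers_iff_mem_zpowers (x := a) (y := x)).2
        (mem_zpowers_of_prime_card hM ha)
      rw [Multiset.count_nsmul, Multiset.count_eq_one_of_mem Finset.univ.nodup (Finset.mem_univ _),
        mul_one]
      exact h3 k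
    refine ⟨_, h4, ?_⟩
    have := t.1.2.1
    rw [h4, Multiset.card_nsmul, hc] at this
    exact this.symm
  split_ifs with h
  · obtain ⟨m, rfl⟩ := h
    have hm : 0 < m := Nat.pos_of_mul_pos_left hn
    rw [Nat.card_eq_one_iff_exists]
    refine ⟨⟨⟨m • (Finset.univ : Finset M).val, by rw [Multiset.card_nsmul, hc, mul_comm], ?_⟩, ?_⟩,
      fun t => ?_⟩
    · intro b hb
      have h1 : ∀ x : M, x = b := fun x => Multiset.eq_of_mem_replicate (n := r * m) (by
        rw [← hb]; exact Multiset.mem_nsmul.2 ⟨hm.ne', Finset.mem_univ _⟩)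
      exact ha ((h1 a).trans (h1 1).symm)
    · apply Subtype.ext
      show (m • (Finset.univ : Finset M).val).map _ = _
      rw [Multiset.map_nsmul]
      congr 1
      exact Multiset.map_univ_val_equiv (Equiv.mulLeft a)
    · obtain ⟨m', h1, h2⟩ := key t
      have : m' = m := by
        rw [mul_comm r] at h2
        exact (Nat.eq_of_mul_eq_mul_right hr.pos h2).symm
      exact Subtype.ext (Subtype.ext (this ▸ h1))
  · rw [Nat.card_eq_zero]
    exact Or.inl ⟨fun t => by
      obtain ⟨m, -, h2⟩ := key t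
      exact h ⟨m, by rw [h2, mul_comm]⟩⟩

theorem card_orbits [Finite M] {r : ℕ} (hr : r.Prime) (hM : Nat.card M = r) (hn : 0 < n) :
    Nat.card (MulAction.orbitRel.Quotient M (Y M n)) =
      ((n + r - 1).choose (r - 1) - r - (if r ∣ n then 1 else 0)) / r +
        (if r ∣ n then 1 else 0) := by
  classical
  have := Fintype.ofFinite M
  have := Fintype.ofFinite (Y M n)
  have := Fintype.ofFinite (MulAction.orbitRel.Quotient M (Y M n))
  have h := MulAction.sum_card_fixedBy_eq_card_orbits_mul_card_group M (Y M n)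
  rw [← Finset.add_sum_erase _ _ (Finset.mem_univ (1 : M)),
    Finset.sum_congr rfl (g := fun _ => if r ∣ n then 1 else 0) (fun a ha => by
      rw [← Nat.card_eq_fintype_card]
      exact card_fixedBy hr hM hn (Finset.ne_of_mem_erase ha)),
    Finset.sum_const, Finset.card_erase_of_mem (Finset.mem_univ _), Finset.card_univ,
    ← Nat.card_eq_fintype_card, ← Nat.card_eq_fintype_card, ← Nat.card_eq_fintype_card, hM,
    MulAction.fixedBy_one_eq_univ, Nat.card_congr (Equiv.Set.univ _), smul_eq_mul] at h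
  have h2 := card_Y (M := M) hn
  have h3 : (r + n - 1).choose n = (n + r - 1).choose (r - 1) := by
    have := hr.pos
    rw [add_comm r n]
    exact Nat.choose_symm_of_eq_add (by omega)
  rw [hM, h3] at h2
  rw [← h2, Nat.add_sub_cancel]
  set k := Nat.card (MulAction.orbitRel.Quotient M (Y M n))
  set y := Nat.card (Y M n)
  have h1 := hr.pos
  split_ifs at h ⊢
  · obtain ⟨r, rfl⟩ : ∃ s, r = s + 1 := ⟨r - 1, by omega⟩
    have hk : k ≠ 0 := by
      rintro h0
      rw [h0] at h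
      have := hr.two_le
      omega
    obtain ⟨j, hj⟩ : ∃ j, k = j + 1 := ⟨k - 1, by omega⟩
    rw [hj] at h ⊢
    have : y - 1 = j * (r + 1) := by
      simp only [Nat.add_sub_cancel, mul_one] at h
      have : (j + 1) * (r + 1) = j * (r + 1) + r + 1 := by ring
      omega
    rw [this, Nat.mul_div_cancel _ h1]
  · simp only [mul_zero, add_zero, Nat.sub_zero] at h ⊢
    rw [h, Nat.mul_div_cancel _ h1]

end comb

section poly

variable {F : Type*} [Field F]

theorem eq_of_isPP_dvd {P Q : F[X]} (hP : IsPP P) (hm : Q.Monic) (hi : Irreducible Q) (h : P ∣ Q) :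
    P = Q := by
  have h1 : ¬ IsUnit P := by
    obtain ⟨φ, k, -, hφ, hk, rfl⟩ := hP
    exact fun h => hφ.not_isUnit ((isUnit_pow_iff hk.ne').1 h)
  exact eq_of_monic_of_associated hP.monic hm
    (((hi.dvd_iff.1 h).resolve_left h1).symm)

theorem isPP_of_irreducible {Q : F[X]} (hm : Q.Monic) (hi : Irreducible Q) : IsPP Q :=
  ⟨Q, 1, hm, hi, one_pos, (pow_one Q).symm⟩

theorem exists_root_of_isPP {r : ℕ} (hr : 0 < r) {ζ : F} (hζ : IsPrimitiveRoot ζ r) {P : F[X]}
    (hP : IsPP P) (h : P ∣ X ^ r - 1) : ∃ a : F, a ^ r = 1 ∧ P = X - C a := by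
  classical
  obtain ⟨φ, k, hm, hφ, hk, rfl⟩ := hP
  have h0 : (r : F) ≠ 0 := by
    haveI : NeZero r := ⟨hr.ne'⟩
    exact hζ.neZero'.out
  have h1 : k = 1 := by
    by_contra h1
    have := (X_pow_sub_one_separable_iff.2 h0).squarefree φ
      ((by rw [← pow_two]; exact pow_dvd_pow φ (by omega) : φ * φ ∣ φ ^ k).trans h)
    exact hφ.not_isUnit this
  subst h1
  rw [pow_one] at h ⊢
  rw [X_pow_sub_one_eq_prod hr hζ] at h
  obtain ⟨a, ha, h⟩ := (hφ.prime.dvd_finsetProd_iff _).1 h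
  exact ⟨a, (mem_nthRootsFinset hr 1).1 ha,
    eq_of_isPP_dvd (isPP_of_irreducible hm hφ) (monic_X_sub_C a) (irreducible_X_sub_C a) h⟩

theorem scl_X_sub_C (a : Fˣ) (b : F) : scl a (X - C b) = X - C (a * b) := by
  rw [scl_apply, X_sub_C_scaleRoots, mul_comm]

theorem scl_X_pow_sub_C {r : ℕ} (hr : 0 < r) (a : Fˣ) (c : F) :
    scl a (X ^ r - C c) = X ^ r - C (a ^ r * c) := by
  rw [scl_apply]
  ext i
  rw [coeff_scaleRoots, natDegree_X_pow_sub_C]
  simp only [coeff_sub, coeff_X_pow, coeff_C]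
  split_ifs with h1 h2 h2
  · omega
  · simp [h1]
  · simp [h2, mul_comm]
  · simp

variable {n : ℕ}

theorem med_eq_replicate {A : Matrix (Fin n) (Fin n) F} {Q : F[X]} (hm : Q.Monic)
    (hi : Irreducible Q) (h : aeval A Q = 0) :
    med A = Multiset.replicate (med A).card Q ∧ (med A).card * Q.natDegree = n := by
  have h1 : med A = Multiset.replicate (med A).card Q :=
    Multiset.eq_replicate_card.2 fun P hP =>
      eq_of_isPP_dvd (med_isPP A P hP) hm hi ((aeval_eq_zero_iff_med A Q).1 h P hP)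
  refine ⟨h1, ?_⟩
  have := sum_natDegree_med A
  rw [h1] at this
  simpa using this

theorem eq_smul_one_iff_med (A : Matrix (Fin n) (Fin n) F) (a : F) :
    A = a • 1 ↔ med A = Multiset.replicate n (X - C a) := by
  have h0 : aeval A (X - C a) = 0 ↔ A = a • 1 := by
    simp [sub_eq_zero, Algebra.algebraMap_eq_smul_one]
  refine ⟨fun h => ?_, fun h => h0.1 ((aeval_eq_zero_iff_med A _).2 fun P hP => ?_)⟩
  · obtain ⟨h1, h2⟩ := med_eq_replicate (monic_X_sub_C a) (irreducible_X_sub_C a) (h0.2 h)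
    rw [natDegree_X_sub_C, mul_one] at h2
    rw [h1, h2]
  · rw [h] at hP
    rw [Multiset.eq_of_mem_replicate hP]

end poly

section main

variable {F : Type*} [Field F] {n : ℕ} {G : Type*} [Group G]
  (ρ : G →* Matrix (Fin n) (Fin n) F) (A : Subgroup Fˣ)

/-- the data: a matrix group whose centre is the group `A` of scalars, and whose classes are
given by elementary divisors -/
structure Dat : Prop where
  cen : ∀ g, g ∈ Subgroup.center G ↔ ∃ a ∈ A, ρ g = (a : F) • 1
  conj : ∀ g h, IsConj g h ↔ med (ρ g) = med (ρ h)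
  ex : ∀ (s : Multiset F[X]), (∀ P ∈ s, Irreducible P ∧ ∃ k, 0 < k ∧ ∃ c ∈ A,
    P = X ^ k - C (c : F)) → (s.map natDegree).sum = n → ∃ g, med (ρ g) = s

variable {ρ A}

theorem Dat.exists_scalar (D : Dat ρ A) {a : Fˣ} (ha : a ∈ A) : ∃ g, ρ g = (a : F) • 1 := by
  obtain ⟨g, hg⟩ := D.ex (Multiset.replicate n (X - C (a : F))) (fun P hP => by
    rw [Multiset.eq_of_mem_replicate hP]
    exact ⟨irreducible_X_sub_C _, 1, one_pos, a, ha, by rw [pow_one]⟩) (by simp)
  exact ⟨g, (eq_smul_one_iff_med _ _).2 hg⟩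

theorem Dat.conj_quot (D : Dat ρ A) (g h : G) :
    IsConj (g : G ⧸ Subgroup.center G) h ↔ ∃ a ∈ A, med (ρ h) = (med (ρ g)).map (scl a) := by
  constructor
  · intro hc
    obtain ⟨k, hk⟩ := isConj_iff.1 hc
    obtain ⟨k, rfl⟩ := QuotientGroup.mk_surjective k
    rw [← QuotientGroup.mk_inv, ← QuotientGroup.mk_mul, ← QuotientGroup.mk_mul,
      QuotientGroup.eq] at hk
    obtain ⟨a, ha, h1⟩ := (D.cen _).1 hk
    refine ⟨a, ha, ?_⟩
    have h2 : h = (k * g * k⁻¹) * ((k * g * k⁻¹)⁻¹ * h) := by group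
    rw [h2, map_mul, h1, Matrix.mul_smul, mul_one, med_smul,
      (D.conj g (k * g * k⁻¹)).1 (isConj_iff.2 ⟨k, rfl⟩)]
  · rintro ⟨a, ha, h1⟩
    obtain ⟨z, hz⟩ := D.exists_scalar ha
    have h2 : IsConj (g * z) h := by
      rw [D.conj, map_mul, hz, Matrix.mul_smul, mul_one, med_smul, h1]
    have h3 := (QuotientGroup.mk' (Subgroup.center G)).map_isConj h2
    rwa [map_mul, QuotientGroup.mk'_apply, QuotientGroup.mk'_apply, QuotientGroup.mk'_apply,
      (QuotientGroup.eq_one_iff z).2 ((D.cen z).2 ⟨a, ha, hz⟩), mul_one] at h3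

theorem Dat.orderOf_iff (D : Dat ρ A) {r : ℕ} (hr : r.Prime) (g : G) :
    orderOf (g : G ⧸ Subgroup.center G) = r ↔
      (∃ c ∈ A, ρ g ^ r = (c : F) • 1) ∧ ¬ ∃ a ∈ A, ρ g = (a : F) • 1 := by
  haveI := Fact.mk hr
  rw [orderOf_eq_prime_iff, ← QuotientGroup.mk_pow, QuotientGroup.eq_one_iff, Ne,
    QuotientGroup.eq_one_iff, D.cen, D.cen, map_pow]

theorem smul_one_inj (hn : 0 < n) {a b : F} (h : a • (1 : Matrix (Fin n) (Fin n) F) = b • 1) :
    a = b := by
  simpa using congrFun (congrFun h ⟨0, hn⟩) ⟨0, hn⟩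

theorem pow_of_med_map {r : ℕ} (hr : 0 < r) {B B' : Matrix (Fin n) (Fin n) F} {a : Fˣ} {c : F}
    (h : med B' = (med B).map (scl a)) (hB : B ^ r = c • 1) : B' ^ r = ((a : F) ^ r * c) • 1 := by
  rw [pow_eq_smul_one_iff_med] at hB ⊢
  intro P hP
  rw [h] at hP
  obtain ⟨Q, hQ, rfl⟩ := Multiset.mem_map.1 hP
  rw [← scl_X_pow_sub_C hr]
  obtain ⟨R, hR⟩ := hB Q hQ
  exact ⟨scl a R, by rw [hR, map_mul]⟩

variable [Finite F]

theorem Dat.card_split (D : Dat ρ A) (hn : 0 < n) {r : ℕ} (hr : r.Prime) (hrA : r ∣ Nat.card A)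
    (hsat : ∀ b : Fˣ, b ^ r ∈ A → b ∈ A) :
    Nat.card {C : ConjClasses (G ⧸ Subgroup.center G) //
      (∃ x, ConjClasses.mk x = C ∧ orderOf x = r) ∧
        ∃ g : G, ConjClasses.mk (g : G ⧸ Subgroup.center G) = C ∧ ρ g ^ r = 1} =
      ((n + r - 1).choose (r - 1) - r - (if r ∣ n then 1 else 0)) / r +
        (if r ∣ n then 1 else 0) := by
  set M := (powMonoidHom r : Fˣ →* Fˣ).ker with hMdef
  have hrF : r ∣ Nat.card Fˣ := hrA.trans A.card_subgroup_dvd_card
  have hM : Nat.card M = r := by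
    rw [hMdef, IsCyclic.card_powMonoidHom_ker, Nat.gcd_eq_right hrF]
  have hMr : ∀ a : M, (a : Fˣ) ^ r = 1 := fun a => a.2
  have hMA : ∀ a : M, (a : Fˣ) ∈ A := fun a => hsat _ (by rw [hMr]; exact A.one_mem)
  obtain ⟨ζ, hζ⟩ : ∃ ζ : F, IsPrimitiveRoot ζ r := by
    haveI := Fact.mk hr
    obtain ⟨u, hu⟩ := exists_prime_orderOf_dvd_card' r hrF
    exact ⟨u, IsPrimitiveRoot.coe_units_iff.2 (hu ▸ IsPrimitiveRoot.orderOf u)⟩
  let f : M → F[X] := fun a => X - C ((a : Fˣ) : F)
  have hf : Function.Injective f := fun a b h =>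
    Subtype.ext (Units.ext (C_injective (sub_right_injective h)))
  have hfs : ∀ (a : M) (t : Multiset M), (t.map (a * ·)).map f = (t.map f).map (scl (a : Fˣ)) := by
    intro a t
    simp only [Multiset.map_map]
    exact Multiset.map_congr rfl fun b _ => by simp [f, scl_X_sub_C]
  have hex : ∀ t : Y M n, ∃ g, med (ρ g) = t.1.map f := fun t => D.ex _ (fun P hP => by
    obtain ⟨a, -, rfl⟩ := Multiset.mem_map.1 hP
    exact ⟨irreducible_X_sub_C _, 1, one_pos, a, hMA a, by rw [pow_one]⟩) (by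
      simp [f, Multiset.map_map, t.2.1])
  choose e he using hex
  have hpow : ∀ t, ρ (e t) ^ r = 1 := fun t => by
    rw [pow_eq_one_iff_med, he]
    intro P hP
    obtain ⟨a, -, rfl⟩ := Multiset.mem_map.1 hP
    rw [dvd_iff_isRoot]
    simp [← Units.val_pow_eq_pow_val, hMr]
  have hord : ∀ t, orderOf (e t : G ⧸ Subgroup.center G) = r := fun t => by
    rw [D.orderOf_iff hr]
    refine ⟨⟨1, A.one_mem, by simp [hpow]⟩, ?_⟩
    rintro ⟨a, -, h⟩
    rw [eq_smul_one_iff_med, he] at h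
    obtain ⟨b, hb⟩ := Multiset.card_pos_iff_exists_mem.1 (by rw [t.2.1]; exact hn : 0 < t.1.card)
    refine t.2.2 b (Multiset.eq_replicate.2 ⟨t.2.1, fun c hc => hf ?_⟩)
    rw [Multiset.eq_of_mem_replicate (h ▸ Multiset.mem_map_of_mem f hc :
        f c ∈ Multiset.replicate n _), Multiset.eq_of_mem_replicate
        (h ▸ Multiset.mem_map_of_mem f hb : f b ∈ Multiset.replicate n _)]
  have hrel : ∀ t u : Y M n, ConjClasses.mk (e t : G ⧸ Subgroup.center G) =
      ConjClasses.mk (e u : G ⧸ Subgroup.center G) ↔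
      MulAction.orbitRel M (Y M n) t u := by
    intro t u
    rw [eq_comm, ConjClasses.mk_eq_mk_iff_isConj, D.conj_quot, MulAction.orbitRel_apply]
    constructor
    · rintro ⟨a, -, h⟩
      have h1 := pow_of_med_map hr.pos h (c := 1) (by simp [hpow])
      rw [hpow, mul_one, ← one_smul F (1 : Matrix (Fin n) (Fin n) F), smul_smul, mul_one] at h1
      have h2 : a ∈ M := Units.ext (by simpa using (smul_one_inj hn h1).symm)
      refine ⟨⟨a, h2⟩, Subtype.ext (Multiset.map_injective hf ?_)⟩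
      rw [he, he] at h
      rw [h]
      exact hfs ⟨a, h2⟩ u.1
    · rintro ⟨a, rfl⟩
      exact ⟨a, hMA a, by rw [he, he]; exact hfs a u.1⟩
  rw [← card_orbits hr hM hn]
  symm
  refine Nat.card_congr (Equiv.ofBijective (Quotient.lift (fun t => ⟨ConjClasses.mk (e t : G ⧸ Subgroup.center G),
    ⟨_, rfl, hord t⟩, e t, rfl, hpow t⟩) fun t u h => Subtype.ext ((hrel t u).2 h)) ⟨?_, ?_⟩)
  · rintro ⟨t⟩ ⟨u⟩ h
    exact Quotient.sound ((hrel t u).1 (congrArg Subtype.val h))
  · rintro ⟨C, ⟨x, rfl, hx⟩, g, hg, h1⟩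
    have h2 : orderOf (g : G ⧸ Subgroup.center G) = r := by
      rw [← hx]
      obtain ⟨c, hc⟩ := ConjClasses.mk_eq_mk_iff_isConj.1 hg
      exact SemiconjBy.orderOf_eq (c : G ⧸ Subgroup.center G) hc
    have h3 : ∀ P ∈ med (ρ g), ∃ a : M, f a = P := fun P hP => by
      obtain ⟨a, ha, rfl⟩ := exists_root_of_isPP hr.pos hζ (med_isPP _ P hP)
        ((pow_eq_one_iff_med _ _).1 h1 P hP)
      have h0 : a ≠ 0 := by
        rintro rfl
        simp [hr.ne_zero] at ha
      exact ⟨⟨Units.mk0 a h0, Units.ext (by simpa using ha)⟩, rfl⟩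
    obtain ⟨t, ht⟩ : ∃ t : Multiset M, t.map f = med (ρ g) := by
      generalize med (ρ g) = s at h3
      induction s using Multiset.induction_on with
      | empty => exact ⟨0, rfl⟩
      | cons P s ih =>
        obtain ⟨t, rfl⟩ := ih fun Q hQ => h3 Q (Multiset.mem_cons_of_mem hQ)
        obtain ⟨a, rfl⟩ := h3 P (Multiset.mem_cons_self _ _)
        exact ⟨a ::ₘ t, by simp⟩
    have h4 : t.card = n := by
      have := sum_natDegree_med (ρ g)
      rw [← ht] at this
      simpa [f, Multiset.map_map] using this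
    have h5 : ∀ a, t ≠ Multiset.replicate n a := by
      rintro a rfl
      refine ((D.orderOf_iff hr g).1 h2).2 ⟨a, hMA a, ?_⟩
      rw [eq_smul_one_iff_med, ← ht, Multiset.map_replicate]
    refine ⟨Quotient.mk _ ⟨t, h4, h5⟩, Subtype.ext ?_⟩
    refine Eq.trans (ConjClasses.mk_eq_mk_iff_isConj.2 ?_) hg
    exact (QuotientGroup.mk' (Subgroup.center G)).map_isConj
      ((D.conj _ _).2 ((he ⟨t, h4, h5⟩).trans ht))

theorem Dat.card_nonsplit (D : Dat ρ A) (hn : 0 < n) {r : ℕ} (hr : r.Prime) (hrA : r ∣ Nat.card A)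
    (hsat : ∀ b : Fˣ, b ^ r ∈ A → b ∈ A) :
    Nat.card {C : ConjClasses (G ⧸ Subgroup.center G) //
      (∃ x, ConjClasses.mk x = C ∧ orderOf x = r) ∧
        ¬ ∃ g : G, ConjClasses.mk (g : G ⧸ Subgroup.center G) = C ∧ ρ g ^ r = 1} =
      if r ∣ n then r - 1 else 0 := by
  set R := (powMonoidHom r : A →* A).range with hR
  have hirr : ∀ c : A, c ∉ R → Irreducible (X ^ r - C ((c : Fˣ) : F)) := fun c hc =>
    X_pow_sub_C_irreducible_of_prime hr fun b hb => by
      have h0 : b ≠ 0 := by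
        rintro rfl
        rw [zero_pow hr.ne_zero] at hb
        exact (c : Fˣ).ne_zero hb.symm
      have h1 : Units.mk0 b h0 ^ r = c := Units.ext (by simpa using hb)
      exact hc ⟨⟨Units.mk0 b h0, hsat _ (h1 ▸ c.2)⟩, Subtype.ext h1⟩
  have hmon : ∀ c : F, (X ^ r - C c).Monic := fun c => monic_X_pow_sub_C c hr.ne_zero
  -- the structure of a class
  have key : ∀ g : G, orderOf (g : G ⧸ Subgroup.center G) = r →
      (¬ ∃ h : G, ConjClasses.mk (h : G ⧸ Subgroup.center G) = 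
        ConjClasses.mk (g : G ⧸ Subgroup.center G) ∧
        ρ h ^ r = 1) → ∃ c : A, c ∉ R ∧ r ∣ n ∧
          med (ρ g) = Multiset.replicate (n / r) (X ^ r - C ((c : Fˣ) : F)) := by
    intro g h1 h2
    obtain ⟨c, hc, h3⟩ := ((D.orderOf_iff hr g).1 h1).1
    have h4 : (⟨c, hc⟩ : A) ∉ R := by
      rintro ⟨a, ha⟩
      obtain ⟨z, hz⟩ := D.exists_scalar (A.inv_mem a.2)
      have ha' : (a : Fˣ) ^ r = c := congrArg Subtype.val ha
      refine h2 ⟨g * z, ?_, ?_⟩
      · rw [QuotientGroup.mk_mul,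
          (QuotientGroup.eq_one_iff z).2 ((D.cen z).2 ⟨_, A.inv_mem a.2, hz⟩), mul_one]
      · rw [map_mul, hz, Matrix.mul_smul, mul_one, _root_.smul_pow, h3, smul_smul, ← ha']
        simp [← mul_pow]
    obtain ⟨h5, h6⟩ := med_eq_replicate (A := ρ g) (hmon c) (hirr ⟨c, hc⟩ h4) (by
      rw [map_sub, map_pow, aeval_X, aeval_C, h3, Algebra.algebraMap_eq_smul_one, sub_self])
    rw [natDegree_X_pow_sub_C] at h6
    refine ⟨_, h4, ⟨_, h6.symm.trans (mul_comm _ _)⟩, ?_⟩
    rw [h5]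
    congr 1
    exact (Nat.div_eq_of_eq_mul_left hr.pos h6.symm).symm
  split_ifs with hd
  · have hq : 0 < n / r := Nat.div_pos (Nat.le_of_dvd hn hd) hr.pos
    have hex : ∀ x : {x : A ⧸ R // x ≠ 1}, ∃ g,
        med (ρ g) = Multiset.replicate (n / r) (X ^ r - C ((x.1.out : Fˣ) : F)) := fun x =>
      D.ex _ (fun P hP => by
        rw [Multiset.eq_of_mem_replicate hP]
        refine ⟨hirr _ fun h => x.2 ?_, r, hr.pos, _, x.1.out.2, rfl⟩
        rw [← QuotientGroup.out_eq' x.1]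
        exact (QuotientGroup.eq_one_iff _).2 h) (by simp [Nat.div_mul_cancel hd])
    choose e he using hex
    have hpow : ∀ x, ρ (e x) ^ r = ((x.1.out : Fˣ) : F) • 1 := fun x => by
      rw [pow_eq_smul_one_iff_med, he]
      intro P hP
      rw [Multiset.eq_of_mem_replicate hP]
    have hcard : Nat.card {x : A ⧸ R // x ≠ 1} = r - 1 := by
      have h1 : Nat.card (A ⧸ R) = r := by
        rw [← Subgroup.index_eq_card, hR, IsCyclic.index_powMonoidHom_range, Nat.gcd_eq_right hrA]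
      classical
      have := Fintype.ofFinite (A ⧸ R)
      rw [← h1, Nat.card_eq_fintype_card, Nat.card_eq_fintype_card]
      simp
    have hout : ∀ (x : A ⧸ R) (a : Fˣ) (ha : a ∈ A) (c : A),
        ((c : Fˣ) : F) = (a : F) ^ r * ((x.out : Fˣ) : F) → (c : A ⧸ R) = x := by
      intro x a ha c h
      have h1 : c = ⟨a, ha⟩ ^ r * x.out := Subtype.ext (Units.ext (by simpa using h))
      rw [h1, QuotientGroup.mk_mul, QuotientGroup.out_eq',
        (QuotientGroup.eq_one_iff (N := R) (⟨a, ha⟩ ^ r)).2 ⟨⟨a, ha⟩, rfl⟩, one_mul]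
    rw [← hcard]
    symm
    refine Nat.card_congr (Equiv.ofBijective (fun x => ⟨ConjClasses.mk (e x : G ⧸ Subgroup.center G),
      ⟨_, rfl, ?_⟩, ?_⟩) ⟨?_, ?_⟩)
    · rw [D.orderOf_iff hr]
      refine ⟨⟨_, x.1.out.2, hpow x⟩, ?_⟩
      rintro ⟨a, -, h⟩
      rw [eq_smul_one_iff_med, he] at h
      have h1 : X ^ r - C ((x.1.out : Fˣ) : F) ∈ Multiset.replicate n (X - C (a : F)) :=
        h ▸ Multiset.mem_replicate.2 ⟨hq.ne', rfl⟩
      have h2 := congrArg natDegree (Multiset.eq_of_mem_replicate h1)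
      rw [natDegree_X_pow_sub_C, natDegree_X_sub_C] at h2
      exact hr.one_lt.ne' h2
    · rintro ⟨h, h1, h2⟩
      obtain ⟨a, ha, h3⟩ := (D.conj_quot _ _).1 (ConjClasses.mk_eq_mk_iff_isConj.1 h1.symm)
      have h4 := pow_of_med_map hr.pos h3 (hpow x)
      rw [h2, ← one_smul F (1 : Matrix (Fin n) (Fin n) F), smul_smul, mul_one] at h4
      exact x.2 (hout x.1 a ha 1 (by simpa using smul_one_inj hn h4)).symm
    · intro x y h
      obtain ⟨a, ha, h3⟩ := (D.conj_quot _ _).1
        (ConjClasses.mk_eq_mk_iff_isConj.1 (congrArg Subtype.val h))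
      have h4 := pow_of_med_map hr.pos h3 (hpow x)
      rw [hpow] at h4
      have h5 := hout x.1 a ha y.1.out (smul_one_inj hn h4)
      rw [QuotientGroup.out_eq'] at h5
      exact Subtype.ext h5.symm
    · rintro ⟨C, ⟨x, rfl, hx⟩, h1⟩
      obtain ⟨g, rfl⟩ := QuotientGroup.mk_surjective x
      obtain ⟨c, hc, -, h2⟩ := key g hx h1
      have h3 : (c : A ⧸ R) ≠ 1 := fun h => hc ((QuotientGroup.eq_one_iff _).1 h)
      refine ⟨⟨c, h3⟩, Subtype.ext ?_⟩
      refine (ConjClasses.mk_eq_mk_iff_isConj.2 ((D.conj_quot _ _).2 ?_)).symm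
      obtain ⟨a, ha⟩ : c⁻¹ * (c : A ⧸ R).out ∈ R := QuotientGroup.eq.1 (QuotientGroup.out_eq' _).symm
      refine ⟨a, a.2, ?_⟩
      rw [he, h2, Multiset.map_replicate, scl_X_pow_sub_C hr.pos]
      have h4 : (c : A ⧸ R).out = a ^ r * c := by
        rw [show a ^ r = _ from ha, mul_comm, mul_inv_cancel_left]
      simp [h4]
  · rw [Nat.card_eq_zero]
    refine Or.inl ⟨?_⟩
    rintro ⟨C, ⟨x, rfl, hx⟩, h1⟩
    obtain ⟨g, rfl⟩ := QuotientGroup.mk_surjective x
    obtain ⟨c, -, h2, -⟩ := key g hx h1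
    exact hd h2

theorem Dat.card_classes [Finite G] (D : Dat ρ A) (hn : 0 < n) {r : ℕ} (hr : r.Prime)
    (hrA : r ∣ Nat.card A) (hsat : ∀ b : Fˣ, b ^ r ∈ A → b ∈ A) :
    Nat.card {C : ConjClasses (G ⧸ Subgroup.center G) //
      ∃ x, ConjClasses.mk x = C ∧ orderOf x = r} =
      ((n + r - 1).choose (r - 1) - r - (if r ∣ n then 1 else 0)) / r +
        r * (if r ∣ n then 1 else 0) := by
  have h1 := D.card_split hn hr hrA hsat
  have h2 := D.card_nonsplit hn hr hrA hsat
  classical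
  rw [← Nat.card_congr (Equiv.sumCompl fun C : {C : ConjClasses (G ⧸ Subgroup.center G) //
      ∃ x, ConjClasses.mk x = C ∧ orderOf x = r} =>
        ∃ g : G, ConjClasses.mk (g : G ⧸ Subgroup.center G) = C.1 ∧ ρ g ^ r = 1), Nat.card_sum,
    Nat.card_congr (Equiv.subtypeSubtypeEquivSubtypeInter _ fun C =>
      ∃ g : G, ConjClasses.mk (g : G ⧸ Subgroup.center G) = C ∧ ρ g ^ r = 1),
    Nat.card_congr (Equiv.subtypeSubtypeEquivSubtypeInter _ fun C =>
      ¬ ∃ g : G, ConjClasses.mk (g : G ⧸ Subgroup.center G) = C ∧ ρ g ^ r = 1), h1, h2]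
  have := hr.pos
  split_ifs <;> omega

end main

theorem dat_GL {F : Type*} [Field F] (n : ℕ) :
    Dat (Units.coeHom (Matrix (Fin n) (Fin n) F)) (⊤ : Subgroup Fˣ) where
  cen g := by
    rw [Matrix.GeneralLinearGroup.center_eq_range_scalar]
    refine ⟨?_, fun ⟨a, _, h⟩ => ⟨a, Units.ext ?_⟩⟩
    · rintro ⟨a, rfl⟩
      exact ⟨a, trivial, by simp [Matrix.GeneralLinearGroup.scalar, Matrix.smul_one_eq_diagonal]⟩
    · have h' : (g : Matrix (Fin n) (Fin n) F) = (a : F) • 1 := h
      rw [h']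
      simp [Matrix.GeneralLinearGroup.scalar, Matrix.smul_one_eq_diagonal]
  conj g h := isConj_gl_iff_med_eq g h
  ex s hs hd := exists_gl_med_eq (fun P hP => by
      obtain ⟨hi, k, hk, c, -, rfl⟩ := hs P hP
      exact isPP_of_irreducible (monic_X_pow_sub_C _ hk.ne') hi) (fun P hP => by
      obtain ⟨hi, k, hk, c, -, rfl⟩ := hs P hP
      simp [coeff_X_pow, hk.ne]) (by simpa using hd)

theorem dat_GU {F : Type*} [Field F] [Fintype F] {q n : ℕ} (hF : Fintype.card F = q ^ 2)
    (hn : 2 ≤ n) : Dat ((Units.coeHom (Matrix (Fin n) (Fin n) F)).comp (Cfsg.GU n F q).subtype)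
      (Mu F q) where
  cen g := by
    rw [H59.mem_center_GU_iff hF hn]
    refine ⟨fun ⟨a, h⟩ => ?_, fun ⟨a, _, h⟩ => ⟨a, h⟩⟩
    have h1 := map_pstar_med_GU hF g
    have h2 := (isUnit_iff_med _).1 g.1.isUnit
    rw [(eq_smul_one_iff_med _ _).1 h] at h1 h2
    have h0 : a ≠ 0 := by
      simpa using h2 _ (Multiset.mem_replicate.2 ⟨by omega, rfl⟩)
    rw [Multiset.map_replicate, pstar_X_sub_C h0] at h1
    have h3 := C_injective (sub_right_injective
      (Multiset.replicate_right_injective (by omega : n ≠ 0) h1))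
    refine ⟨Units.mk0 a h0, (mem_Mu hF).2 ?_, h⟩
    have h4 : H59.frob hF a ≠ 0 := (_root_.map_ne_zero _).2 h0
    rw [Units.val_mk0]
    nth_rewrite 1 [← h3]
    exact inv_mul_cancel₀ h4
  conj g h := isConj_GU_iff hF g h
  ex s hs hd := exists_GU_med_eq hF (fun P hP => by
      obtain ⟨hi, k, hk, c, -, rfl⟩ := hs P hP
      exact isPP_of_irreducible (monic_X_pow_sub_C _ hk.ne') hi) (fun P hP => by
      obtain ⟨hi, k, hk, c, -, rfl⟩ := hs P hP
      simp [coeff_X_pow, hk.ne]) (by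
      conv_rhs => rw [← Multiset.map_id s]
      refine Multiset.map_congr rfl fun P hP => ?_
      obtain ⟨hi, k, hk, c, hc, rfl⟩ := hs P hP
      rw [pstar_X_pow_sub_C hk c.ne_zero, ← eq_inv_of_mul_eq_one_left ((mem_Mu hF).1 hc), id]) hd

theorem card_pgl {F : Type*} [Field F] [Fintype F] {n r : ℕ} (hn : 0 < n) (hr : r.Prime)
    (hrq : r ∣ Fintype.card F - 1) :
    Nat.card {C : ConjClasses (GL (Fin n) F ⧸ Subgroup.center (GL (Fin n) F)) //
      ∃ x, ConjClasses.mk x = C ∧ orderOf x = r} =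
      ((n + r - 1).choose (r - 1) - r - (if r ∣ n then 1 else 0)) / r +
        r * (if r ∣ n then 1 else 0) :=
  (dat_GL n).card_classes hn hr (by
    rwa [Subgroup.card_top, Nat.card_units, Nat.card_eq_fintype_card]) fun _ _ => trivial

theorem card_pgu {F : Type*} [Field F] [Fintype F] {q n r : ℕ} (hF : Fintype.card F = q ^ 2)
    (hn : 2 ≤ n) (hr : r.Prime) (hr2 : r ≠ 2) (hrq : r ∣ q + 1) :
    Nat.card {C : ConjClasses (Cfsg.GU n F q ⧸ Subgroup.center (Cfsg.GU n F q)) //
      ∃ x, ConjClasses.mk x = C ∧ orderOf x = r} =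
      ((n + r - 1).choose (r - 1) - r - (if r ∣ n then 1 else 0)) / r +
        r * (if r ∣ n then 1 else 0) :=
  (dat_GU hF hn).card_classes (by omega) hr (by rwa [card_Mu hF]) fun b hb => by
    have h1 : (b ^ (q + 1)) ^ r = 1 := by
      rw [← pow_mul, mul_comm, pow_mul]
      exact hb
    have hq := H59.two_le_q hF
    have h2 : (b ^ (q + 1)) ^ (q - 1) = 1 := by
      rw [← pow_mul, ← pow_card_eq_one' (G := Fˣ) (x := b), Nat.card_units,
        Nat.card_eq_fintype_card, hF]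
      congr 1
      obtain ⟨q, rfl⟩ : ∃ s, q = s + 1 := ⟨q - 1, by omega⟩
      rw [Nat.add_sub_cancel]
      exact Nat.eq_sub_of_add_eq (by ring)
    have h3 : Nat.Coprime r (q - 1) := (Nat.Prime.coprime_iff_not_dvd hr).2 fun h => hr2 (by
      have := Nat.dvd_sub hrq h
      rw [show q + 1 - (q - 1) = 2 by omega] at this
      exact (Nat.prime_dvd_prime_iff_eq hr Nat.prime_two).1 this)
    have h4 := pow_gcd_eq_one.2 ⟨h1, h2⟩
    rwa [h3, pow_one] at h4

end H90.PC
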