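/- U4 tower (row S5210), chapter q = 3: the group is generated by its reflections. -/
import Cfsg.Agent.H90.Q3Spec

set_option autoImplicit false
set_option linter.unusedSectionVars false
set_option linter.unusedVariables false

open Subgroup H28.U4

namespace H90.Q3

variable {G : Subgroup (Equiv.Perm W)}

theorem ad_mul {g h : Equiv.Perm W} (a : Ad g) (b : Ad h) : Ad ⇑(g * h) := fun w w' => by
  simp only [Equiv.Perm.mul_apply, b w w', a _ _]

theorem ad_inv {g : Equiv.Perm W} (a : Ad g) : Ad ⇑g⁻¹ := fun w w' => g.injective (by rw [a]; simp)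

theorem images (cj : CJ) (h : Hy G) {g : Equiv.Perm W} (hg : g ∈ G) {B : Fin 4 → V} (hB : ∀ i, Rt G (B i))
    (gm : Gm B B) : ∃ y : Fin 4 → V, (∀ i, Rt G (y i) ∧ Cn g (B i) (y i)) ∧ Gm B y := by
  choose y hy using fun i => cj G h g hg _ (hB i)
  refine ⟨y, hy, fun i j => ⟨(hy i).2.dot (h.add g hg) (hB i).1 (hy i).1.1 (hB j).1 (hy j).1.1 (hy j).2,
    fun ne => ⟨fun e => ((gm i j).2 ne).1 ?_, fun e => ((gm i j).2 ne).2 ?_⟩⟩⟩
  · exact (hy i).2.inv.uniq (hB i).1 (hB j).1 (e ▸ (hy j).2.inv)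
  · exact (hy i).2.inv.uniq (hB i).1 (hB j).1.ng
      (e ▸ ((hy j).2.ng (h.add g hg) (hB j).1.ne (hy j).1.1.ne).inv)

theorem mo_mem {P : V → Prop} (p : P a0) : mo ∈ GG P :=
  have r : Ro a0 := by decide
  r.sq ▸ mul_mem (Jp_mem_GG r p) (Jp_mem_GG r p)

theorem bA_fact : (∀ i, Ro (bA i) ∧ pA4 (bA i) ∧ rf ee (ng (bA i)) = bA i) ∧ Gm bA bA := by
  unfold Gm; decide +kernel

theorem jobDA : JobDA := fun cj sch na G P h hP e => by
  have le : GG P ≤ G := GG_le fun x r p => ((e x).2 ⟨r, p⟩).2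
  have pA : ∀ x, pA4 x → P x := fun x p => by
    rcases hP with rfl | rfl | rfl
    exacts [p, .inl p, p.1]
  have mo' : ∀ k, k = 1 ∨ k = mo → k ∈ GG P := by
    rintro k (rfl | rfl)
    exacts [one_mem _, mo_mem (pA _ (bA_fact.1 0).2.1)]
  refine le_antisymm (fun g hg => ?_) le
  obtain ⟨y, hy, gm⟩ := images cj h hg (fun i => (e _).2 ⟨(bA_fact.1 i).1, pA _ (bA_fact.1 i).2.1⟩) bA_fact.2
  obtain ⟨l, hl, k⟩ := na P hP y (fun i => (e _).1 (hy i).1) gm
  have hw : wd l ∈ GG P := wd_mem fun a ha => Jp_mem_GG (hl a ha).1 (hl a ha).2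
  have c : ∀ i, Cn (wd l * g) (bA i) (sh l (y i)) := fun i =>
    (cn_wd (fun a ha => (hl a ha).1.ne) (hy i).1.1.ne).mul (hy i).2
  have ad := ad_mul (ad_wd l) (h.add g hg)
  refine ((GG P).mul_mem_cancel_left hw).1 ?_
  rcases k with k | k
  · exact mo' _ (sch _ ad (.inl fun i => k i ▸ c i))
  · have r : Ro ee := by decide
    have m := mo' _ (sch _ (ad_mul (ad_Jp ee) ad) (.inl fun i => by
      have q := (cn_Jp r.ne (bA_fact.1 i).1.ng.ne).mul (k i ▸ c i : Cn (wd l * g) (bA i) (ng (bA i)))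
      rwa [(bA_fact.1 i).2.2] at q))
    have : Jp ee ∈ G := (G.mul_mem_cancel_right (mul_mem (le hw) hg)).1 (le m)
    exact ((GG P).mul_mem_cancel_left (Jp_mem_GG r ((e ee).1 ⟨r, this⟩).2)).1 m

theorem bD_fact : (∀ i, Ro (bD i) ∧ pD4 (bD i)) ∧ Gm bD bD := by
  unfold Gm; decide +kernel

theorem wd_append (l l' : List V) : wd (l ++ l') = wd l * wd l' := by simp [wd]

theorem tl_not (h : Hy G) {m : Fin 3} (k : wd (tl m m) ∈ G) : m = 0 := by
  rw [← tg_eq] at k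
  obtain ⟨b, -, e⟩ := h.pel _ k (fun w hw => hw) (by
    rw [tg_pow, show ((3 : ℕ) : F9) = 0 from rfl, zero_mul, tg_zero])
  have e0 := congrArg Prod.snd (Equiv.congr_fun e (bs 0))
  have e1 := congrArg Prod.snd (Equiv.congr_fun e (bs 1))
  simp only [tg_apply, ub_apply] at e0 e1
  clear e k
  revert e0 e1 b m
  decide +kernel

theorem n34 : ∀ a ∈ [a3, a4], dot a a ≠ 0 := by decide +kernel

theorem cj_E1 (m : Fin 3) : wd (tl (2 * m : Fin 3) (2 * m : Fin 3)) * E1 =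
    wd (tl m m ++ [a3, a4]) * wd (tl (2 * m : Fin 3) (2 * m : Fin 3)) := by
  have n : ∀ (k : Fin 3) (l : List V), (∀ a ∈ l, dot a a ≠ 0) → ∀ a ∈ tl k k ++ l, dot a a ≠ 0 :=
    fun k l hl a ha => (List.mem_append.1 ha).elim (tl_ne k k a) (hl a)
  rw [show E1 = wd [a3, a4] by simp [E1, wd], ← wd_append, ← wd_append, List.append_assoc]
  refine Equiv.ext (Ad.ext (ad_wd _) (ad_wd _) fun i => ?_)
  rw [wd_apply (n _ _ n34), wd_apply (n _ _ fun a ha => (List.mem_append.1 ha).elim (n34 a) (tl_ne _ _ a))]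
  revert m i
  decide +kernel

theorem dd (cj : CJ) (sch : SCH) (nd : JobND) (h : Hy G) (e : Eqv (Rt G) pD4) {g : Equiv.Perm W} (hg : g ∈ G) :
    g ∈ GG pD4 ∨ ∃ m : Fin 3, wd (tl m m) * E1 ∈ G ∧ ∃ n ∈ GG pD4, ∃ k ∈ GG pD4, g = n * (wd (tl m m) * E1) * k := by
  have le : GG pD4 ≤ G := GG_le fun x r p => ((e x).2 ⟨r, p⟩).2
  obtain ⟨y, hy, gm⟩ := images cj h hg (fun i => (e _).2 (bD_fact.1 i)) bD_fact.2
  obtain ⟨l, hl, m, k⟩ := nd y (fun i => (e _).1 (hy i).1) gm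
  have hw : wd l ∈ GG pD4 := wd_mem fun a ha => Jp_mem_GG (hl a ha).1 (hl a ha).2
  have key : ∀ l' : List V, (∀ a ∈ l', dot a a ≠ 0) → (∀ i, sh l (y i) = sh l' (bD i)) →
      wd l' ∈ G ∧ (wd l')⁻¹ * (wd l * g) ∈ GG pD4 := fun l' n k => by
    have m : (wd l')⁻¹ * (wd l * g) ∈ GG pD4 := by
      rcases sch _ (ad_mul (ad_inv (ad_wd l')) (ad_mul (ad_wd l) (h.add g hg))) (.inr fun i =>
        (cn_wd n (bD_fact.1 i).1.ne).inv.mul (k i ▸
          (cn_wd (fun a ha => (hl a ha).1.ne) (hy i).1.1.ne).mul (hy i).2)) with q | q <;> rw [q]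
      exacts [one_mem _, mo_mem rfl]
    exact ⟨inv_mem_iff.1 ((G.mul_mem_cancel_right (mul_mem (le hw) hg)).1 (le m)), m⟩
  rcases k with k | k
  · obtain ⟨a, b⟩ := key _ (tl_ne m m) k
    obtain rfl := tl_not h a
    exact .inl (((GG pD4).mul_mem_cancel_left hw).1 (by simpa [tl, wd] using b))
  · obtain ⟨a, b⟩ := key _ (fun a ha => (List.mem_append.1 ha).elim (tl_ne m m a) (n34 a)) k
    rw [wd_append, show wd [a3, a4] = E1 by simp [E1, wd]] at a b
    exact .inr ⟨m, a, _, inv_mem hw, _, b, by group⟩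

theorem jobDD : JobDD := fun cj sch nd G h e => by
  have le : GG pD4 ≤ G := GG_le fun x r p => ((e x).2 ⟨r, p⟩).2
  refine ⟨fun hE => le_antisymm (fun g hg => ?_) (sup_le le (zpowers_le.2 hE)),
    fun hE => le_antisymm (fun g hg => ?_) le⟩
  · rcases dd cj sch nd h e hg with k | ⟨m, a, n, hn, k, hk, rfl⟩
    · exact mem_sup_left k
    · obtain rfl := tl_not h ((G.mul_mem_cancel_right hE).1 a)
      exact mul_mem (mul_mem (mem_sup_left hn) (mem_sup_right (by simp [tl, wd]))) (mem_sup_left hk)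
  · rcases dd cj sch nd h e hg with k | ⟨m, a, -⟩
    · exact k
    · refine absurd (mem_cW.2 ?_) (hE (2 * m))
      rw [cj_E1, mul_inv_cancel_right, wd_append, show wd [a3, a4] = E1 by simp [E1, wd]]
      exact a

end H90.Q3
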